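import Cfsg.Agent.AutOrthField.Transport
import Cfsg.Agent.AutOrthMinus.FieldPart

/-!
# Cosets of field and graph-field automorphisms in even dimension
-/

set_option autoImplicit false
set_option linter.unusedSectionVars false

namespace CfsgLib.AutOrthField

open Module Cfsg Cfsg.Geo CfsgLib.OrthGeo CfsgLib.Classical.Orth
open CfsgLib.AutOrth (IsSemisim omegaToS conjS conjS_omega twistP semi mapGL)
open scoped Matrix MatrixGroups

section Groups

variable {X Y : Type*} [Group X] [Group Y]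

theorem isConjUnder_map (Φ : X ≃* Y) (H : Subgroup X) (x y : X) :
    IsConjUnder (H.map Φ.toMonoidHom) (Φ x) (Φ y) ↔ IsConjUnder H x y := by
  constructor
  · rintro ⟨_, ⟨h, hh, rfl⟩, he⟩
    refine ⟨h, hh, Φ.injective ?_⟩
    rw [he, map_mul, map_mul, map_inv]
    rfl
  · rintro ⟨h, hh, rfl⟩
    exact ⟨Φ h, ⟨h, hh, rfl⟩, by rw [map_mul, map_mul, map_inv]⟩

theorem splitClassCount_map (Φ : X ≃* Y) (H K : Subgroup X) (x : X) :
    splitClassCount (H.map Φ.toMonoidHom) (K.map Φ.toMonoidHom) (Φ x) = splitClassCount H K x :=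
  (Nat.card_congr (Quot.congr (Φ.toEquiv.subtypeEquiv fun y => (isConjUnder_map Φ H x y).symm)
    fun y z => (isConjUnder_map Φ K y.1 z.1).symm)).symm

theorem inf_centralizer_map (Φ : X ≃* Y) (H : Subgroup X) (x : X) :
    Nonempty (↥(H.map Φ.toMonoidHom ⊓ Subgroup.centralizer {Φ x}) ≃* ↥(H ⊓ Subgroup.centralizer {x})) := by
  have h : (H ⊓ Subgroup.centralizer {x}).map Φ.toMonoidHom = H.map Φ.toMonoidHom ⊓ Subgroup.centralizer {Φ x} := by
    ext g
    simp only [Subgroup.mem_map, Subgroup.mem_inf, Subgroup.mem_centralizer_singleton_iff]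
    constructor
    · rintro ⟨a, ⟨ha, ha'⟩, rfl⟩
      exact ⟨⟨a, ha, rfl⟩, (map_mul Φ a x).symm.trans ((congrArg Φ ha').trans (map_mul Φ x a))⟩
    · rintro ⟨⟨a, ha, rfl⟩, hg⟩
      exact ⟨a, ⟨ha, Φ.injective ((map_mul Φ a x).trans (hg.trans (map_mul Φ x a).symm))⟩, rfl⟩
  rw [← h]
  exact ⟨((H ⊓ Subgroup.centralizer {x}).equivMapOfInjective _ Φ.injective).symm⟩

end Groups

variable {F : Type*} [Field F]

/-- A quadratic equation over a finite field has a root in the quadratic extension. -/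
theorem exists_root_of_card [Finite F] {F₀ : Type*} [Field F₀] (e : F₀ →+* F)
    (hcard : Nat.card F = Nat.card F₀ ^ 2) (a b : F₀) : ∃ θ : F, θ ^ 2 + e a * θ + e b = 0 := by
  haveI : Finite F₀ := Finite.of_injective e e.injective
  by_cases hr : ∃ x : F₀, x ^ 2 + a * x + b = 0
  · obtain ⟨x, hx⟩ := hr
    exact ⟨e x, by rw [← map_pow, ← map_mul, ← map_add, ← map_add, hx, map_zero]⟩
  push Not at hr
  letI : Algebra F₀ F := e.toAlgebra
  let P : Polynomial F₀ := Polynomial.X ^ 2 + Polynomial.C a * Polynomial.X + Polynomial.C b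
  have hP : P.natDegree = 2 := by simp only [P]; compute_degree!
  have hirr : Irreducible P := by
    refine Polynomial.irreducible_of_degree_le_three_of_not_isRoot (by rw [Finset.mem_Icc]; omega) fun x hx => ?_
    simp only [P, Polynomial.IsRoot.def, Polynomial.eval_add, Polynomial.eval_mul, Polynomial.eval_pow,
      Polynomial.eval_X, Polynomial.eval_C] at hx
    exact hr x hx
  haveI := Fact.mk hirr
  haveI : FiniteDimensional F₀ (AdjoinRoot P) := (AdjoinRoot.powerBasis hirr.ne_zero).finite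
  haveI : Finite (AdjoinRoot P) := Module.finite_of_finite F₀
  have h2 : finrank F₀ (AdjoinRoot P) = 2 := by
    rw [(AdjoinRoot.powerBasis hirr.ne_zero).finrank, AdjoinRoot.powerBasis_dim, hP]
  have h2' : finrank F₀ F = 2 := by
    have h := Module.natCard_eq_pow_finrank (K := F₀) (V := F)
    rw [hcard] at h
    exact (Nat.pow_right_injective (Finite.one_lt_card (α := F₀)) h).symm
  obtain ⟨φ⟩ := FiniteField.nonempty_algHom_of_finrank_dvd (F := F₀) (K := AdjoinRoot P) (L := F)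
    (by rw [h2, h2'])
  refine ⟨φ (AdjoinRoot.root P), ?_⟩
  have h := congrArg φ (AdjoinRoot.eval₂_root P)
  simp only [P, Polynomial.eval₂_add, Polynomial.eval₂_mul, Polynomial.eval₂_pow, Polynomial.eval₂_X,
    Polynomial.eval₂_C, map_add, map_mul, map_pow, map_zero] at h
  rw [← AdjoinRoot.algebraMap_eq, φ.commutes, φ.commutes] at h
  exact h

variable {ι : Type} [Fintype ι] [DecidableEq ι] {Q : (ι → F) → F}

theorem isNondegQF_mulVec (hQ : IsNondegenerateQuadraticForm Q) (g0 : GL ι F) :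
    IsNondegenerateQuadraticForm (fun v => Q ((g0 : Matrix ι ι F) *ᵥ v)) := by
  have hB := hQ.polar_bilinear
  have hp : ∀ u v, QuadraticMap.polar (fun v => Q ((g0 : Matrix ι ι F) *ᵥ v)) u v =
      QuadraticMap.polar Q ((g0 : Matrix ι ι F) *ᵥ u) ((g0 : Matrix ι ι F) *ᵥ v) := fun u v => by
    simp only [QuadraticMap.polar, Matrix.mulVec_add]
  refine ⟨fun a v => by rw [Matrix.mulVec_smul, hQ.smul],
    ⟨fun x y v => ?_, fun a x v => ?_, fun v x y => ?_, fun a v x => ?_⟩, fun v hv => ?_⟩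
  · rw [hp, hp, hp, Matrix.mulVec_add, hB.add_left]
  · rw [hp, hp, Matrix.mulVec_smul, hB.smul_left]
  · rw [hp, hp, hp, Matrix.mulVec_add, hB.add_right]
  · rw [hp, hp, Matrix.mulVec_smul, hB.smul_right]
  · have hne0 : (g0 : Matrix ι ι F) *ᵥ v ≠ 0 := fun h0 => hv (by
      rw [← inv_mulVec_cancel g0 v, h0, Matrix.mulVec_zero])
    suffices hs : ∃ x, QuadraticMap.polar (fun v => Q ((g0 : Matrix ι ι F) *ᵥ v)) v x ≠ 0 by
      obtain ⟨x, hx⟩ := hs
      exact ⟨⟨x, by rwa [QuadraticMap.polar_comm]⟩, x, hx⟩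
    obtain ⟨-, y, hy⟩ := hQ.nondegenerate _ hne0
    refine ⟨((g0⁻¹ : GL ι F) : Matrix ι ι F) *ᵥ y, ?_⟩
    rw [hp, mulVec_inv_cancel]
    exact hy

variable [Finite F] {k : ℕ}

/-- Parity is invariant under all semisimilarities. -/
theorem parS_twist (hE : EvenForm Q k) {a : GL ι F} {τ : F ≃+* F} (h : IsSemisimilarityPair Q a τ) (g : Sim Q)
    (hm : a * mapGL τ g.1 * a⁻¹ ∈ quadSimilarityGroup Q) : parS hE ⟨_, hm⟩ = parS hE g := by
  obtain ⟨c, hc⟩ := AutOrth.semisim_exists h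
  let Q₁ : (ι → F) → F := fun v => ((c⁻¹ : Fˣ) : F) * Q ((a : Matrix ι ι F) *ᵥ v)
  have hE₁ : EvenForm Q₁ k := ⟨isNondegQF_smul (isNondegQF_mulVec hE.nondeg a) (Units.ne_zero _), hE.card, hE.three⟩
  let L : (ι → F) ≃ₗ[F] (ι → F) := LinearEquiv.ofLinear (Matrix.toLin' (a : Matrix ι ι F))
    (Matrix.toLin' ((a⁻¹ : GL ι F) : Matrix ι ι F))
    (by rw [← Matrix.toLin'_mul, Units.mul_inv, Matrix.toLin'_one])
    (by rw [← Matrix.toLin'_mul, Units.inv_mul, Matrix.toLin'_one])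
  have hL : ∀ v, Q (L v) = (c : F) * Q₁ v := fun v => by
    change Q ((a : Matrix ι ι F) *ᵥ v) = _
    simp only [Q₁, ← mul_assoc, ← Units.val_mul, mul_inv_cancel, Units.val_one, one_mul]
  have hres : ∀ v, Q₁ (fun i => (τ : F →+* F) (v i)) = (τ : F →+* F) (Q v) := fun v => by
    change ((c⁻¹ : Fˣ) : F) * Q (semi a τ v) = τ (Q v)
    rw [hc, ← mul_assoc, ← Units.val_mul, inv_mul_cancel, Units.val_one, one_mul]
  rw [← parS_lift (τ : F →+* F) hE₁ hE hres g, ← parS_simCongr L hL hE₁ hE]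
  congr 1
  refine Subtype.ext (gl_ext fun w => ?_)
  obtain ⟨v, rfl⟩ := L.surjective w
  rw [coe_simCongr, glCongr_mulVec]
  change ((a * mapGL τ g.1 * a⁻¹ : GL ι F) : Matrix ι ι F) *ᵥ ((a : Matrix ι ι F) *ᵥ v) =
    (a : Matrix ι ι F) *ᵥ _
  rw [Units.val_mul, Units.val_mul, ← Matrix.mulVec_mulVec, inv_mulVec_cancel, ← Matrix.mulVec_mulVec]
  rfl

/-- The image of the proper similarities in `Aut`. -/
noncomputable abbrev diagAut (hE : EvenForm Q k) : Subgroup (MulAut (POmega F Q)) :=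
  (properS hE).map (conjS Q)

theorem diagAut_normal (hE : EvenForm Q k) (hall : ∀ β : MulAut (POmega F Q), IsSemisim Q β) :
    (diagAut hE).Normal :=
  normal_map_conjS hall _ fun _ _ h g hg hm => (parS_twist hE h g hm).trans hg

theorem mapSim_reflS (hQ : IsNondegenerateQuadraticForm Q) {σ : RingAut F} (hσ : SigmaInv Q σ) {v : ι → F}
    (hv : Q v ≠ 0) (hfix : ∀ i, σ (v i) = v i) : mapSim hσ (reflS hQ hv) = reflS hQ hv := by
  refine Subtype.ext (Units.ext ?_)
  refine (reflectionMatrix_map (σ : F →+* F) hσ v).trans ?_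
  rw [show (fun i => (σ : F →+* F) (v i)) = v from funext hfix]
  rfl

theorem reflS_mul_self (hQ : IsNondegenerateQuadraticForm Q) {v : ι → F} (hv : Q v ≠ 0) :
    reflS hQ hv * reflS hQ hv = 1 := by
  refine Subtype.ext (gl_ext fun x => ?_)
  change (((refl hQ hv : isometryGroup F Q) : GL ι F) * ((refl hQ hv : isometryGroup F Q) : GL ι F) : GL ι F).1 *ᵥ x = _
  rw [coe_refl, Units.val_mul, ← Matrix.mulVec_mulVec, reflection_mulVec, reflection_mulVec]
  simp only [map_sub, map_smul, smul_eq_mul, b_self hQ]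
  change _ = (1 : Matrix ι ι F) *ᵥ x
  rw [Matrix.one_mulVec]
  match_scalars <;> field_simp
  ring

/-- A reflection fixed by `σ`. -/
theorem exists_fixed_reflection (hE : EvenForm Q k) {σ : RingAut F} (hσ : SigmaInv Q σ) :
    ∃ ρ : Sim Q, mapSim hσ ρ = ρ ∧ ρ * ρ = 1 ∧ parS hE ρ ≠ 1 := by
  haveI := hE.nonempty
  set e := ((σ : F →+* F).eqLocusField (RingHom.id F)).subtype
  have he := exists_eqLocus σ
  obtain ⟨v, hv⟩ := exists_q_ne_zero (isNondegQF_desc he hσ hE.nondeg)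
  have hv' : Q (fun i => e (v i)) ≠ 0 := by
    rw [← map_desc he hσ]
    exact fun h => hv (e.injective (h.trans e.map_zero.symm))
  exact ⟨reflS hE.nondeg hv', mapSim_reflS _ hσ hv' fun i => (he _).2 ⟨v i, rfl⟩, reflS_mul_self _ hv',
    parS_reflS hE hv'⟩

/-- `a` and `b` are twisted conjugate. -/
def Related {σ : RingAut F} (hσ : SigmaInv Q σ) (a b : Sim Q) : Prop := ∃ g, a * mapSim hσ g = g * b

theorem parS_of_related (hE : EvenForm Q k) {σ : RingAut F} {hσ : SigmaInv Q σ} {a b : Sim Q}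
    (h : Related hσ a b) : parS hE a = parS hE b := by
  obtain ⟨g, hg⟩ := h
  have := congrArg (parS hE) hg
  rw [map_mul, map_mul, parS_mapSim, mul_comm] at this
  exact mul_left_cancel this

theorem Related.symm {σ : RingAut F} {hσ : SigmaInv Q σ} {a b : Sim Q} (h : Related hσ a b) : Related hσ b a := by
  obtain ⟨g, hg⟩ := h
  exact ⟨g⁻¹, by rw [map_inv, eq_inv_mul_iff_mul_eq, ← mul_assoc, ← hg, mul_inv_cancel_right]⟩

/-- Twisted forms of the same type give related elements. -/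
theorem related_of_type (hE : EvenForm Q k) {σ : RingAut F} (hσ : SigmaInv Q σ) {F₀ : Type*} [Field F₀] [Finite F₀]
    {e : F₀ →+* F} (he : ∀ x, σ x = x ↔ ∃ y, e y = x) {a b : Sim Q} {ga gb : GL ι F} {na nb : Fˣ}
    (hga : a.1 * glMap σ ga = ga) (hgb : b.1 * glMap σ gb = gb)
    (hia : SigmaInv (fun v => ((na⁻¹ : Fˣ) : F) * Q ((ga : Matrix ι ι F) *ᵥ v)) σ)
    (hda : IsNondegenerateQuadraticForm (fun v => ((na⁻¹ : Fˣ) : F) * Q ((ga : Matrix ι ι F) *ᵥ v)))
    (hib : SigmaInv (fun v => ((nb⁻¹ : Fˣ) : F) * Q ((gb : Matrix ι ι F) *ᵥ v)) σ)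
    (hdb : IsNondegenerateQuadraticForm (fun v => ((nb⁻¹ : Fˣ) : F) * Q ((gb : Matrix ι ι F) *ᵥ v)))
    (htype : HasSingular (desc e (fun v => ((na⁻¹ : Fˣ) : F) * Q ((ga : Matrix ι ι F) *ᵥ v))) k ↔
      HasSingular (desc e (fun v => ((nb⁻¹ : Fˣ) : F) * Q ((gb : Matrix ι ι F) *ᵥ v))) k) :
    Related hσ a b := by
  obtain ⟨P, hP⟩ := exists_gl_isometry (isNondegQF_desc he hib hdb) (isNondegQF_desc he hia hda) (m := k)
    (by rw [hE.card, two_mul]) htype.symm
  set P' : GL ι F := Matrix.GeneralLinearGroup.map e P with hP'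
  set Ra := fun v => ((na⁻¹ : Fˣ) : F) * Q ((ga : Matrix ι ι F) *ᵥ v) with hRa
  set Rb := fun v => ((nb⁻¹ : Fˣ) : F) * Q ((gb : Matrix ι ι F) *ᵥ v) with hRb
  have h1 : Rb = fun v => Ra ((P' : Matrix ι ι F) *ᵥ v) := by
    have hB := hda.polar_bilinear
    refine eq_of_rational e hdb (fun c v => by rw [Matrix.mulVec_smul, hda.smul]) ⟨?_, ?_, ?_, ?_⟩ fun v => ?_
    · intro x y v; simp only [QuadraticMap.polar, Matrix.mulVec_add]; exact hB.add_left _ _ _
    · intro c x v; simp only [QuadraticMap.polar, Matrix.mulVec_add, Matrix.mulVec_smul]; exact hB.smul_left _ _ _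
    · intro v x y; simp only [QuadraticMap.polar, Matrix.mulVec_add]; exact hB.add_right _ _ _
    · intro c v x; simp only [QuadraticMap.polar, Matrix.mulVec_add, Matrix.mulVec_smul]; exact hB.smul_right _ _ _
    · have h2 := congrArg e (hP v)
      rw [map_desc he hia, map_desc he hib] at h2
      rw [← h2]
      congr 1
      funext i
      exact RingHom.map_mulVec e P.1 v i
  refine ⟨⟨ga * P' * gb⁻¹, na * nb⁻¹, fun v => ?_⟩, Subtype.ext ?_⟩
  · have h2 := congrFun h1 (((gb⁻¹ : GL ι F) : Matrix ι ι F) *ᵥ v)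
    simp only [hRa, hRb, mulVec_inv_cancel] at h2
    rw [Units.val_mul, Units.val_mul, ← Matrix.mulVec_mulVec, ← Matrix.mulVec_mulVec, Units.val_mul, mul_assoc, h2,
      ← mul_assoc, ← Units.val_mul, mul_inv_cancel, Units.val_one, one_mul]
  · have hfix : glMap σ P' = P' := by
      refine Units.ext ?_
      ext i j
      exact (he _).2 ⟨_, rfl⟩
    change a.1 * glMap σ (ga * P' * gb⁻¹) = ga * P' * gb⁻¹ * b.1
    have hb' : (glMap σ gb)⁻¹ = gb⁻¹ * b.1 := by
      rw [eq_inv_mul_iff_mul_eq, mul_inv_eq_iff_eq_mul, hgb]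
    rw [map_mul, map_mul, map_inv, hfix, ← mul_assoc, ← mul_assoc, hga, hb', ← mul_assoc]

/-- There are only two classes of twisted forms. -/
theorem exists_related_pair (hE : EvenForm Q k) {σ : RingAut F} (hσ : SigmaInv Q σ) {r : ℕ} (hr : orderOf σ = r)
    (hr0 : 0 < r) {a b c : Sim Q} (ha : twist hσ a r = 1) (hb : twist hσ b r = 1) (hc : twist hσ c r = 1) :
    Related hσ a b ∨ Related hσ a c ∨ Related hσ b c := by
  haveI := hE.nonempty
  obtain ⟨ga, na, hga, hia, hda⟩ := exists_descent_form hE.nondeg hE.exists_ne hσ hr hr0 ha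
  obtain ⟨gb, nb, hgb, hib, hdb⟩ := exists_descent_form hE.nondeg hE.exists_ne hσ hr hr0 hb
  obtain ⟨gc, nc, hgc, hic, hdc⟩ := exists_descent_form hE.nondeg hE.exists_ne hσ hr hr0 hc
  set e := ((σ : F →+* F).eqLocusField (RingHom.id F)).subtype
  have he := exists_eqLocus σ
  have h3 : ∀ A B C : Prop, (A ↔ B) ∨ (A ↔ C) ∨ (B ↔ C) := fun A B C => by
    by_cases A <;> by_cases B <;> by_cases C <;> simp_all
  rcases h3 _ _ _ with h | h | h
  · exact Or.inl (related_of_type hE hσ he hga hgb hia hda hib hdb h)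
  · exact Or.inr (Or.inl (related_of_type hE hσ he hga hgc hia hda hic hdc h))
  · exact Or.inr (Or.inr (related_of_type hE hσ he hgb hgc hib hdb hic hdc h))

/-- Elements of the coset of `ρ` with trivial twisted product are twisted conjugates of `ρ`. -/
def HasRelated {σ : RingAut F} (hσ : SigmaInv Q σ) (r : ℕ) (ρ : Sim Q) (H : Subgroup (Sim Q)) : Prop :=
  ∀ h ∈ H, twist hσ (h * ρ) r = 1 → Related hσ (h * ρ) ρ

theorem hasRelated_odd (hE : EvenForm Q k) {σ : RingAut F} (hσ : SigmaInv Q σ) {r : ℕ} (hr : orderOf σ = r)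
    (hodd : Odd r) : HasRelated hσ r 1 (properS hE) := fun h _ ht => by
  haveI := hE.nonempty
  rw [mul_one] at ht ⊢
  obtain ⟨g, hg⟩ := hasDescent_even hE.nondeg (m := k) (by rw [hE.card, two_mul]) hσ hr hodd h ht
  exact ⟨g, by rw [hg, mul_one]⟩

theorem twist_two {σ : RingAut F} (hσ : SigmaInv Q σ) (a : Sim Q) : twist hσ a 2 = a * mapSim hσ a := by
  simp [twist]

/-- For an involution `σ`. -/
theorem hasRelated_two (hE : EvenForm Q k) {σ : RingAut F} (hσ : SigmaInv Q σ) (hr : orderOf σ = 2)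
    {ρ : Sim Q} (hρ : mapSim hσ ρ = ρ) (hρ2 : ρ * ρ = 1) : HasRelated hσ 2 ρ (properS hE) := by
  intro h hh ht
  obtain ⟨t, ht1, ht2, ht3⟩ := exists_fixed_reflection hE hσ
  have h1 : twist hσ (1 : Sim Q) 2 = 1 := by rw [twist_two, map_one, one_mul]
  have hρt : twist hσ ρ 2 = 1 := by rw [twist_two, hρ, hρ2]
  have htt : twist hσ t 2 = 1 := by rw [twist_two, ht1, ht2]
  have hp : parS hE (h * ρ) = parS hE ρ := by rw [map_mul, MonoidHom.mem_ker.1 hh, one_mul]
  have h1p := map_one (parS hE)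
  by_cases hρp : parS hE ρ = 1
  · rcases exists_related_pair hE hσ hr two_pos ht hρt htt with h' | h' | h'
    · exact h'
    · exact absurd ((parS_of_related hE h').symm.trans (hp.trans hρp)) ht3
    · exact absurd ((parS_of_related hE h').symm.trans hρp) ht3
  · rcases exists_related_pair hE hσ hr two_pos ht hρt h1 with h' | h' | h'
    · exact h'
    · exact absurd (hp.symm.trans ((parS_of_related hE h').trans h1p)) hρp
    · exact absurd ((parS_of_related hE h').trans h1p) hρp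

theorem exists_twist_eq_one (hE : EvenForm Q k) {σ : RingAut F} {hσ : SigmaInv Q σ} {r : ℕ} (hr : orderOf σ = r)
    (hr0 : 0 < r) {h : Sim Q} {c : Fˣ} (hc : twist hσ h r = scalarSim hE.nondeg c) :
    ∃ u : Fˣ, twist hσ (scalarSim hE.nondeg u * h) r = 1 := by
  haveI := hE.nonempty
  have hfix : AutPSL.unitsAut σ c = c := by
    have h1 : twist hσ h (r + 1) = h * mapSim hσ (twist hσ h r) := rfl
    have h0 : mapSim (hσ.pow r) h = h := Subtype.ext (by
      rw [coe_mapSim, ← hr, pow_orderOf_eq_one, glMap_one])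
    rw [twist_succ', h0, hc, mapSim_scalarSim hE.nondeg, scalarSim_comm] at h1
    exact (scalarSim_injective hE.nondeg (mul_left_cancel h1)).symm
  obtain ⟨u, hu⟩ := AutPSL.exists_normProd_eq hr hr0 (c := c⁻¹) (by
    rw [← AutPSL.coe_unitsAut, map_inv, hfix])
  exact ⟨u, by rw [twist_scalarSim_mul, hc, hu, ← map_mul, inv_mul_cancel, map_one]⟩

/-- The coset statement relative to a base element `ρ σ`. -/
theorem coset_conj_base (hE : EvenForm Q k) (hall : ∀ β : MulAut (POmega F Q), IsSemisim Q β) {σ : RingAut F}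
    (hσ : SigmaInv Q σ) {r : ℕ} (hr : orderOf σ = r) (hr0 : 0 < r) {ρ t : Sim Q} (ht : mapSim hσ t = t)
    (htρ : t * ρ = ρ * t) (htp : parS hE t ≠ 1) (hrel : HasRelated hσ r ρ (properS hE))
    {x δ α : MulAut (POmega F Q)} (hα : α * x * α⁻¹ = conjS Q ρ * mapP hσ) (hxr : orderOf x = r)
    (hδ : δ ∈ diagAut hE) : orderOf (δ * x) = r ↔ IsConjUnder (diagAut hE) x (δ * x) := by
  haveI := hE.nonempty
  have hN := diagAut_normal hE hall
  constructor
  · intro hy
    obtain ⟨h, hh, hδ'⟩ := hN.conj_mem δ hδ α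
    have e : conjS Q (h * ρ) * mapP hσ = α * (δ * x) * α⁻¹ := by
      rw [map_mul, mul_assoc, ← hα, hδ']; group
    have hpow : (conjS Q (h * ρ) * mapP hσ) ^ r = 1 := by
      rw [e, ← hy, ← AutPSp.orderOf_conj α (δ * x)]
      exact pow_orderOf_eq_one _
    rw [conjS_mul_mapP_pow, mapP_congr (hσ.pow r) (sigmaInv_one Q) (by rw [← hr, pow_orderOf_eq_one]),
      mapP_one, mul_one] at hpow
    obtain ⟨c, hc⟩ := exists_scalar_of_conjS_eq_one hE.nondeg hE.five hpow
    obtain ⟨u, hu⟩ := exists_twist_eq_one hE hr hr0 hc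
    obtain ⟨g, hg⟩ := hrel (scalarSim hE.nondeg u * h) (mul_mem (scalar_mem_proper hE u) hh)
      (by rwa [mul_assoc])
    obtain ⟨g', hg'H, hg'⟩ : ∃ g' ∈ properS hE, scalarSim hE.nondeg u * h * ρ * mapSim hσ g' = g' * ρ := by
      by_cases hp : parS hE g = 1
      · exact ⟨g, hp, hg⟩
      · refine ⟨g * t, ?_, ?_⟩
        · rw [MonoidHom.mem_ker, map_mul]; exact z2_mul hp htp
        · rw [map_mul, ht, ← mul_assoc, hg, mul_assoc, mul_assoc, htρ]
    have hm : mapP hσ * (conjS Q g')⁻¹ = conjS Q (mapSim hσ g')⁻¹ * mapP hσ := by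
      rw [← map_inv, mapP_mul_conjS, map_inv (mapSim hσ)]
    have key : conjS Q (h * ρ) * mapP hσ = conjS Q g' * (conjS Q ρ * mapP hσ) * (conjS Q g')⁻¹ := by
      rw [mul_assoc, mul_assoc (conjS Q ρ), hm, ← mul_assoc, ← mul_assoc, ← map_mul, ← map_mul]
      congr 1
      rw [← eq_mul_inv_of_mul_eq hg']
      simp only [map_mul, conjS_scalarSim, one_mul]
    rw [e, ← hα] at key
    refine ⟨α⁻¹ * conjS Q g' * α⁻¹⁻¹, hN.conj_mem _ ⟨g', hg'H, rfl⟩ _, ?_⟩
    calc δ * x = α⁻¹ * (α * (δ * x) * α⁻¹) * α := by group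
      _ = α⁻¹ * (conjS Q g' * (α * x * α⁻¹) * (conjS Q g')⁻¹) * α := by rw [key]
      _ = _ := by group
  · rintro ⟨h, -, e⟩
    rw [e, AutPSp.orderOf_conj, hxr]

end CfsgLib.AutOrthField
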