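import Cfsg.Agent.AutOrthField.EvenField
import Cfsg.Agent.AutPSL.GraphField

/-!
# Centralisers and splitting of the standard field automorphisms in even dimension
-/

set_option autoImplicit false
set_option linter.unusedSectionVars false

namespace CfsgLib.AutOrthField

open Module Cfsg Cfsg.Geo CfsgLib.OrthGeo CfsgLib.Classical.Orth
open CfsgLib.AutOrth (IsSemisim omegaToS conjS conjS_omega)
open scoped Matrix MatrixGroups

theorem card_quot_zpowers {D : Type*} [CommGroup D] (d : D) (hd2 : d ^ 2 = 1) :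
    (d = 1 → Nat.card (D ⧸ Subgroup.zpowers d) = Nat.card D) ∧
      (d ≠ 1 → 2 * Nat.card (D ⧸ Subgroup.zpowers d) = Nat.card D) := by
  have h := (Subgroup.zpowers d).card_eq_card_quotient_mul_card_subgroup
  rw [Nat.card_zpowers] at h
  refine ⟨fun h1 => ?_, fun h1 => ?_⟩
  · rw [h, orderOf_eq_one_iff.2 h1, mul_one]
  · rw [h, orderOf_eq_prime hd2 h1, mul_comm]

variable {F : Type*} [Field F] [Finite F] {ι : Type} [Fintype ι] [DecidableEq ι] {Q : (ι → F) → F} {k : ℕ}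

theorem exists_of_conjS_mem_inn (hE : EvenForm Q k) {g : Sim Q} (h : conjS Q g ∈ Inn (POmega F Q)) :
    ∃ (x : Omega F Q) (u : Fˣ), g = omegaToS Q x * scalarSim hE.nondeg u := by
  haveI := hE.nonempty
  obtain ⟨y, hy⟩ := h
  obtain ⟨x, rfl⟩ := QuotientGroup.mk_surjective y
  obtain ⟨u, hu⟩ := exists_scalar_of_conjS_eq_one hE.nondeg hE.five (g := (omegaToS Q x)⁻¹ * g)
    (by rw [map_mul, map_inv, conjS_omega, hy, inv_mul_cancel])
  exact ⟨x, u, by rw [← hu, mul_inv_cancel_left]⟩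

theorem conjS_omega_scalar_mem (hE : EvenForm Q k) (x : Omega F Q) (u : Fˣ) :
    conjS Q (omegaToS Q x * scalarSim hE.nondeg u) ∈ Inn (POmega F Q) := by
  rw [map_mul, conjS_scalarSim, mul_one, conjS_omega]
  exact ⟨_, rfl⟩

theorem isoSim_eq_omega (hE : EvenForm Q k) {s : ↥(isometryGroup F Q)} (h : classHom hE.nondeg hE.hexc s = 1) :
    ∃ x : Omega F Q, isoSim Q s = omegaToS Q x :=
  ⟨⟨s, by rwa [← ker_classHom hE.nondeg hE.hexc, MonoidHom.mem_ker]⟩, rfl⟩

theorem exists_proper_mult (hE : EvenForm Q k) {c : Fˣ} (h : ∃ g : Sim Q, mult hE.exists_ne g = c) :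
    ∃ g ∈ properS hE, mult hE.exists_ne g = c := by
  obtain ⟨g, hg⟩ := h
  by_cases hp : parS hE g = 1
  · exact ⟨g, hp, hg⟩
  obtain ⟨v, hv⟩ := hE.exists_ne
  refine ⟨g * reflS hE.nondeg hv, ?_, ?_⟩
  · rw [MonoidHom.mem_ker, map_mul]; exact z2_mul hp (parS_reflS hE hv)
  · rw [map_mul, hg, reflS, mult_isoSim, mul_one]

variable {F₀ : Type*} [Field F₀] [Finite F₀] {Q₀ : (ι → F₀) → F₀} (e : F₀ →+* F)
  (hE : EvenForm Q k) (hE₀ : EvenForm Q₀ k) (hres : ∀ v, Q (fun i => e (v i)) = e (Q₀ v))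
  {σ : RingAut F} (hσ : SigmaInv Q σ) {r : ℕ} (hr : orderOf σ = r) (hr0 : 0 < r)
  (he : ∀ x, σ x = x ↔ ∃ y, e y = x)
include hE hE₀ hres hr hr0 he

theorem proper_centralizer :
    Nonempty (↥(diagAut hE ⊓ Subgroup.centralizer {mapP hσ}) ≃* ↥(diagAut hE₀)) := by
  haveI := hE.nonempty
  exact centralizer_equiv hE.nondeg e hres hE.five hE₀.nondeg hσ hr hr0 he (properS hE) (properS hE₀)
    (scalar_mem_proper hE) fun g₀ => by rw [MonoidHom.mem_ker, MonoidHom.mem_ker, parS_lift e hE hE₀ hres]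

/-- No splitting when squares are detected over the fixed field. -/
theorem split_one (hμ : ∀ c : F₀ˣ, ∃ g₀ : Sim Q₀, mult hE₀.exists_ne g₀ = c)
    (hsq : ∀ x : F₀, IsSquare (e x) → IsSquare x) :
    splitClassCount (diagAut hE) (Inn (POmega F Q)) (mapP hσ) = 1 := by
  haveI := hE.nonempty
  rw [diagAut, splitClassCount_eq hE.nondeg e hres hE.five hσ hr hr0 he (properS hE) (1 : _ →* PUnit.{1})
    (fun y => ⟨1, rfl⟩) (fun a => iff_of_true rfl ?_), Nat.card_unique]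
  have hns : ∀ c : F, ¬ IsSquare c → ∃ x : F₀, ¬ IsSquare x := by
    intro c hc
    by_contra h
    push Not at h
    refine hc ?_
    by_cases h2 : (2 : F₀) = 0
    · exact isSquare_of_two_eq_zero (by rw [← map_ofNat e 2, h2, map_zero]) c
    · obtain ⟨x, hx⟩ := exists_not_isSquare h2
      exact absurd (h x) hx
  obtain ⟨c₀, hc₀⟩ : ∃ c₀ : F₀ˣ, IsSquare ((mult hE.exists_ne a.1 : F) * (e (c₀ : F₀))⁻¹) := by
    by_cases hc : IsSquare (mult hE.exists_ne a.1 : F)
    · exact ⟨1, by rwa [Units.val_one, map_one, inv_one, mul_one]⟩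
    · obtain ⟨x, hx⟩ := hns _ hc
      have hx0 : x ≠ 0 := fun h => hx (h ▸ IsSquare.zero)
      refine ⟨Units.mk0 x hx0, isSquare_mul_of_not hc fun h => hx (hsq x ?_)⟩
      rw [Units.val_mk0] at h
      exact isSquare_inv.1 h
  obtain ⟨g₀, hg₀, hgm⟩ := exists_proper_mult hE₀ (hμ c₀)
  set b := a.1 * (liftSim e hE.nondeg hres g₀)⁻¹ with hb
  obtain ⟨u, hu⟩ : ∃ u : Fˣ, mult hE.exists_ne b = u ^ 2 := by
    obtain ⟨t, ht⟩ := hc₀
    have hbm : (mult hE.exists_ne b : F) = t * t := by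
      rw [hb, map_mul, map_inv, mult_liftSim e hE.nondeg hres hE.exists_ne hE₀.exists_ne, hgm, Units.val_mul,
        Units.val_inv_eq_inv_val, ← ht]
      rfl
    have ht0 : t ≠ 0 := fun h => (mult hE.exists_ne b).ne_zero (by rw [hbm, h, mul_zero])
    exact ⟨Units.mk0 t ht0, Units.ext (by rw [hbm, Units.val_pow_eq_pow_val, Units.val_mk0, sq])⟩
  obtain ⟨s, hs⟩ := exists_iso_of_mult hE.nondeg hE.exists_ne b u hu
  have hps : (classHom hE.nondeg hE.hexc s).1 = 1 := by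
    have h := congrArg (parS hE) hs
    rw [hb, map_mul, map_mul, map_inv, parS_lift e hE hE₀ hres, MonoidHom.mem_ker.1 hg₀, MonoidHom.mem_ker.1 a.2,
      parS_scalar, parS_iso, inv_one, one_mul, one_mul] at h
    exact h.symm
  obtain ⟨s₀, hs₀⟩ : ∃ s₀ : ↥(isometryGroup F₀ Q₀),
      classHom hE.nondeg hE.hexc (liftIso e hE.nondeg hres s₀) = classHom hE.nondeg hE.hexc s := by
    have hfst : ∀ t : ↥(isometryGroup F₀ Q₀), (classHom hE₀.nondeg hE₀.hexc t).1 = 1 →
        (classHom hE.nondeg hE.hexc (liftIso e hE.nondeg hres t)).1 = 1 := fun t ht => by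
      rw [classHom_fst] at ht ⊢
      exact (invariants_lift e hE.nondeg hres hE₀.nondeg hE₀.hexc t.2).1.2 ht
    by_cases h : (classHom hE.nondeg hE.hexc s).2 = 1
    · refine ⟨1, ?_⟩
      rw [show liftIso e hE.nondeg hres 1 = 1 from Subtype.ext (map_one _), map_one]
      exact (Prod.ext hps h).symm
    · obtain ⟨x, hx⟩ := hns _ (fun h' => h ((classHom_snd hE.nondeg hE.hexc s).2 h'))
      have h20 : (2 : F₀) ≠ 0 := fun h' => hx (isSquare_of_two_eq_zero h' x)
      obtain ⟨t, ht⟩ := classHom_surjective hE₀.nondeg h20 (by have := hE₀.five; omega) (1, Multiplicative.ofAdd 1)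
      refine ⟨t, Prod.ext ((hfst t (congrArg Prod.fst ht)).trans hps.symm) (z2_eq (iff_of_false ?_ h))⟩
      rw [classHom_lift_snd e hE hE₀ hres]
      intro h'
      have := (classHom_snd hE₀.nondeg (not_exc_of_two_ne_zero h20) t).2 (hsq _ h')
      rw [ht] at this
      exact absurd this (by decide)
  obtain ⟨x, hx⟩ := isoSim_eq_omega hE (s := s * (liftIso e hE.nondeg hres s₀)⁻¹)
    (by rw [map_mul, map_inv, hs₀, mul_inv_cancel])
  refine ⟨x, u, isoSim Q₀ s₀ * g₀, ?_⟩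
  rw [map_mul, liftSim_isoSim, ← hx, map_mul, map_inv, ← mul_assoc (scalarSim hE.nondeg u), ← mul_assoc,
    ← mul_assoc, mul_assoc (isoSim Q s), ← scalarSim_comm, ← mul_assoc, ← scalarSim_comm, mul_assoc (scalarSim _ u * _),
    inv_mul_cancel, mul_one, ← hs, hb, inv_mul_cancel_right]

/-- The splitting for an involution `σ`. -/
theorem split_two {D : Type*} [CommGroup D] (φ : ↥(diagAut hE) →* D) (hφ : Function.Surjective φ)
    (hker : φ.ker = (Inn (POmega F Q)).subgroupOf (diagAut hE)) (hall : ∀ x : F₀, IsSquare (e x))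
    (s₀ : Sim Q₀) (hs₀ : s₀ ∈ properS hE₀) (hν : ¬ IsSquare (mult hE₀.exists_ne s₀ : F₀)) :
    (conjS Q (liftSim e hE.nondeg hres s₀) ∈ Inn (POmega F Q) →
      splitClassCount (diagAut hE) (Inn (POmega F Q)) (mapP hσ) = Nat.card D) ∧
    (conjS Q (liftSim e hE.nondeg hres s₀) ∉ Inn (POmega F Q) →
      2 * splitClassCount (diagAut hE) (Inn (POmega F Q)) (mapP hσ) = Nat.card D) := by
  haveI := hE.nonempty
  have hmem : ∀ g₀ : ↥(properS hE₀), liftSim e hE.nondeg hres g₀.1 ∈ properS hE := fun g₀ => by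
    rw [MonoidHom.mem_ker, parS_lift e hE hE₀ hres]; exact g₀.2
  obtain ⟨Φ, hΦs, hΦ⟩ : ∃ Φ : ↥(properS hE) →* D, Function.Surjective Φ ∧
      ∀ g : ↥(properS hE), Φ g = 1 ↔ conjS Q g.1 ∈ Inn (POmega F Q) := by
    refine ⟨φ.comp ((conjS Q).subgroupMap (properS hE)), hφ.comp ((conjS Q).subgroupMap_surjective _), fun g => ?_⟩
    change φ _ = 1 ↔ _
    rw [← MonoidHom.mem_ker, hker, Subgroup.mem_subgroupOf]
    rfl
  obtain ⟨ψ, hψdef⟩ : ∃ ψ : ↥(properS hE₀) →* D, ∀ g₀, ψ g₀ = Φ ⟨liftSim e hE.nondeg hres g₀.1, hmem g₀⟩ :=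
    ⟨Φ.comp (((liftSim e hE.nondeg hres).comp (properS hE₀).subtype).codRestrict _ hmem), fun _ => rfl⟩
  have hψsq : ∀ g₀ : ↥(properS hE₀), IsSquare (mult hE₀.exists_ne g₀.1 : F₀) → ψ g₀ = 1 := by
    rintro g₀ ⟨t, ht⟩
    have ht0 : t ≠ 0 := fun h => (mult hE₀.exists_ne g₀.1).ne_zero (by rw [ht, h, mul_zero])
    obtain ⟨s, hs⟩ := exists_iso_of_mult hE₀.nondeg hE₀.exists_ne g₀.1 (Units.mk0 t ht0)
      (Units.ext (by rw [ht, Units.val_pow_eq_pow_val, Units.val_mk0, sq]))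
    have hps : Even (finrank F₀ (residual (s : GL ι F₀))) := by
      rw [← parS_iso_eq_one_iff hE₀]
      have h := MonoidHom.mem_ker.1 g₀.2
      rwa [hs, map_mul, parS_scalar, one_mul] at h
    obtain ⟨x, hx⟩ := isoSim_eq_omega hE (s := liftIso e hE.nondeg hres s) (Prod.ext
      ((classHom_fst _ _ _).2 ((invariants_lift e hE.nondeg hres hE₀.nondeg hE₀.hexc s.2).1.2 hps))
      ((classHom_lift_snd e hE hE₀ hres s).2 (hall _)))
    rw [hψdef, hΦ]
    change conjS Q (liftSim e hE.nondeg hres g₀.1) ∈ _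
    rw [hs, map_mul, liftSim_scalarSim e hE.nondeg hE₀.nondeg, liftSim_isoSim, hx, scalarSim_comm]
    exact conjS_omega_scalar_mem hE x _
  set S : ↥(properS hE₀) := ⟨s₀, hs₀⟩
  set d := ψ S with hd
  have hd2 : d ^ 2 = 1 := by
    rw [hd, ← map_pow]
    refine hψsq _ ?_
    rw [SubmonoidClass.coe_pow, map_pow, Units.val_pow_eq_pow_val]
    exact IsSquare.sq _
  have hψ : ∀ g₀ : ↥(properS hE₀), ψ g₀ ∈ Subgroup.zpowers d := by
    intro g₀
    by_cases h : IsSquare (mult hE₀.exists_ne g₀.1 : F₀)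
    · rw [hψsq g₀ h]; exact one_mem _
    · have h1 := hψsq (g₀ * S⁻¹) (by
        rw [Subgroup.coe_mul, Subgroup.coe_inv, map_mul, map_inv, Units.val_mul, Units.val_inv_eq_inv_val]
        exact isSquare_mul_of_not h fun h' => hν (isSquare_inv.1 h'))
      rw [map_mul, map_inv, mul_inv_eq_one] at h1
      exact h1 ▸ Subgroup.mem_zpowers d
  have key : splitClassCount (diagAut hE) (Inn (POmega F Q)) (mapP hσ) = Nat.card (D ⧸ Subgroup.zpowers d) := by
    refine splitClassCount_eq hE.nondeg e hres hE.five hσ hr hr0 he (properS hE)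
      ((QuotientGroup.mk' (Subgroup.zpowers d)).comp Φ) ((QuotientGroup.mk'_surjective _).comp hΦs) fun a => ?_
    rw [MonoidHom.comp_apply, QuotientGroup.mk'_apply, QuotientGroup.eq_one_iff]
    constructor
    · intro h
      obtain ⟨i, hi⟩ := Subgroup.mem_zpowers_iff.1 h
      rw [hd, ← map_zpow, hψdef] at hi
      set L : ↥(properS hE) := ⟨_, hmem (S ^ i)⟩
      obtain ⟨x, u, hx⟩ := exists_of_conjS_mem_inn hE ((hΦ (a * L⁻¹)).1 (by
        rw [map_mul, map_inv, ← hi]; exact mul_inv_cancel _))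
      refine ⟨x, u, (S ^ i).1, ?_⟩
      rw [← mul_assoc, ← hx, Subgroup.coe_mul, Subgroup.coe_inv]
      exact (inv_mul_cancel_right _ _).symm
    · rintro ⟨x, u, g₀, hg⟩
      have hg₀ : g₀ ∈ properS hE₀ := by
        have h := MonoidHom.mem_ker.1 a.2
        rwa [hg, map_mul, map_mul, parS_omega, parS_scalar, one_mul, one_mul, parS_lift e hE hE₀ hres] at h
      have h1 : Φ (a * (⟨_, hmem ⟨g₀, hg₀⟩⟩ : ↥(properS hE))⁻¹) = 1 := (hΦ _).2 (by
        rw [Subgroup.coe_mul, Subgroup.coe_inv, hg, ← mul_assoc, mul_inv_cancel_right]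
        exact conjS_omega_scalar_mem hE x u)
      rw [map_mul, map_inv, mul_inv_eq_one] at h1
      rw [h1, ← hψdef ⟨g₀, hg₀⟩]
      exact hψ ⟨g₀, hg₀⟩
  obtain ⟨h₁, h₂⟩ := card_quot_zpowers d hd2
  refine ⟨fun h => key.trans (h₁ ?_), fun h => (congrArg (2 * ·) key).trans (h₂ fun h' => h ?_)⟩
  · rw [hd, hψdef]
    exact (hΦ _).2 h
  · rw [hd, hψdef, hΦ] at h'
    exact h'

end CfsgLib.AutOrthField
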