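import Cfsg.Agent.AutOrthField.EvenSplit
import Cfsg.Agent.AutOrthMinus.Classes
import Cfsg.Agent.AutOrthMinus.AllSemisim

/-!
# Field automorphisms of `PΩ⁻`
-/

set_option autoImplicit false
set_option linter.unusedSectionVars false

namespace CfsgLib.AutOrthField

open Module Cfsg Cfsg.Geo CfsgLib.OrthGeo CfsgLib.Classical.Orth
open CfsgLib.AutOrthMinus (Idx simMat simGL ParVal)
open CfsgLib.AutOrth (IsSemisim omegaToS conjS conjS_omega)
open scoped Matrix MatrixGroups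

universe u

variable {F : Type u} [Field F] {m : ℕ} {a b : F}

theorem evenMinus (hm : 2 ≤ m) (hQ : IsNondegenerateQuadraticForm (quadFormMinus m F a b)) :
    EvenForm (quadFormMinus m F a b) (m + 1) :=
  ⟨hQ, by simp only [Fintype.card_sum, Fintype.card_fin]; omega, by omega⟩

theorem res_minus {F₀ : Type*} [Field F₀] (e : F₀ →+* F) (a₀ b₀ : F₀) (v : Idx m → F₀) :
    quadFormMinus m F (e a₀) (e b₀) (fun i => e (v i)) = e (quadFormMinus m F₀ a₀ b₀ v) := by
  simp [quadFormMinus]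

theorem sigmaInv_minus {σ : RingAut F} (ha : σ a = a) (hb : σ b = b) : SigmaInv (quadFormMinus m F a b) σ :=
  fun v => by simp [quadFormMinus, map_sum, ha, hb]

theorem det_simMat (α₁ α₂ c : F) (hα : α₁ ^ 2 + a * α₁ * α₂ + b * α₂ ^ 2 = c) :
    (simMat m a b α₁ α₂ c).det = (-1) ^ (m + 1) * c ^ (m + 1) := by
  have e1 : Matrix.fromBlocks (0 : Matrix (Fin m) (Fin m) F) (c • (1 : Matrix (Fin m) (Fin m) F)) (1 : Matrix (Fin m) (Fin m) F) (0 : Matrix (Fin m) (Fin m) F) =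
      Matrix.fromBlocks (c • (1 : Matrix (Fin m) (Fin m) F)) (0 : Matrix (Fin m) (Fin m) F) (0 : Matrix (Fin m) (Fin m) F) (1 : Matrix (Fin m) (Fin m) F) * Matrix.fromBlocks (0 : Matrix (Fin m) (Fin m) F) (1 : Matrix (Fin m) (Fin m) F) (1 : Matrix (Fin m) (Fin m) F) (0 : Matrix (Fin m) (Fin m) F) := by
    simp [Matrix.fromBlocks_multiply]
  have e2 : (Matrix.fromBlocks (0 : Matrix (Fin m) (Fin m) F) (1 : Matrix (Fin m) (Fin m) F) (1 : Matrix (Fin m) (Fin m) F) (0 : Matrix (Fin m) (Fin m) F)).det = (-1) ^ m := by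
    have e3 : Matrix.fromBlocks (0 : Matrix (Fin m) (Fin m) F) (1 : Matrix (Fin m) (Fin m) F) (1 : Matrix (Fin m) (Fin m) F) (0 : Matrix (Fin m) (Fin m) F) * Matrix.fromBlocks (1 : Matrix (Fin m) (Fin m) F) (1 : Matrix (Fin m) (Fin m) F) (0 : Matrix (Fin m) (Fin m) F) (1 : Matrix (Fin m) (Fin m) F) =
        Matrix.fromBlocks (0 : Matrix (Fin m) (Fin m) F) (1 : Matrix (Fin m) (Fin m) F) (1 : Matrix (Fin m) (Fin m) F) (1 : Matrix (Fin m) (Fin m) F) := by
      simp [Matrix.fromBlocks_multiply]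
    have e4 := congrArg Matrix.det e3
    rw [Matrix.det_mul, Matrix.det_fromBlocks_zero₂₁, Matrix.det_fromBlocks_one₂₂, Matrix.det_one, one_mul,
      mul_one, zero_sub, Matrix.mul_one, Matrix.det_neg, Matrix.det_one, mul_one, Fintype.card_fin] at e4
    exact e4
  rw [simMat, Matrix.det_fromBlocks_zero₂₁, e1, Matrix.det_mul, e2, Matrix.det_fromBlocks_zero₂₁, Matrix.det_one,
    Matrix.det_smul, Matrix.det_one, Fintype.card_fin, Matrix.det_fin_two]
  simp only [Matrix.of_apply, Matrix.cons_val', Matrix.cons_val_zero, Matrix.cons_val_one, Matrix.empty_val',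
    Matrix.cons_val_fin_one]
  rw [pow_succ, pow_succ]
  linear_combination -((-1 : F) ^ m * c ^ m) * hα

variable [Finite F]

theorem exists_value_binary (hab : ∀ x y : F, x ^ 2 + a * x * y + b * y ^ 2 = 0 → x = 0 ∧ y = 0) {c : F}
    (hc : c ≠ 0) : ∃ α₁ α₂ : F, α₁ ^ 2 + a * α₁ * α₂ + b * α₂ ^ 2 = c := by
  obtain ⟨α, hα⟩ := exists_q_eq (isNondegQF_quadFormMinus 0 a b hab) (by simp) hc
  exact ⟨α (.inr 0), α (.inr 1), by simpa [quadFormMinus] using hα⟩

variable (hm : 2 ≤ m) (hab : ∀ x y : F, x ^ 2 + a * x * y + b * y ^ 2 = 0 → x = 0 ∧ y = 0)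
include hm hab

theorem exists_mult_minus (c : Fˣ) :
    ∃ g : Sim (quadFormMinus m F a b),
      mult (evenMinus hm (isNondegQF_quadFormMinus m a b hab)).exists_ne g = c := by
  obtain ⟨α₁, α₂, hα⟩ := exists_value_binary hab c.ne_zero
  exact ⟨⟨simGL α₁ α₂ _ c.ne_zero hα, c, AutOrthMinus.simGL_similarity α₁ α₂ (c : F) c.ne_zero hα⟩,
    Units.ext (mult_eq _ _ _ (AutOrthMinus.simGL_similarity α₁ α₂ (c : F) c.ne_zero hα))⟩

/-- The parity is the action on the two classes over a splitting field. -/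
theorem hasPar_parS (g : Sim (quadFormMinus m F a b)) {K : Type u} [Field K] (f : F →+* K) (θ : K)
    (hθ : θ ^ 2 + f a * θ + f b = 0) :
    ParVal (a := a) (b := b) f θ (g : GL (Idx m) F) (parS (evenMinus hm (isNondegQF_quadFormMinus m a b hab)) g = 1) := by
  set hQ := isNondegQF_quadFormMinus m a b hab
  set hE := evenMinus hm hQ
  have hd := four_mul_sub_sq_ne_zero hab
  have hsi : ∀ (u : Fˣ) (s : ↥(isometryGroup F (quadFormMinus m F a b))),
      ParVal (a := a) (b := b) f θ ((scalarSim hQ u * isoSim _ s : Sim _) : GL (Idx m) F)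
        (parS hE (scalarSim hQ u * isoSim _ s) = 1) := by
    intro u s
    have h1 := AutOrthMinus.parVal_scalar (m := m) hd hθ u
    have h2 := AutOrthMinus.parVal_isometry hd hθ hQ hE.hexc s.2
    rw [show (AutOrthMinus.scalarGL u : GL (Idx m) F) = Matrix.GeneralLinearGroup.scalar (Idx m) u from
      gl_ext fun x => by rw [AutOrthMinus.scalarGL_mulVec, scalar_mulVec]] at h1
    rw [← propext (parS_iso_eq_one_iff hE s)] at h2
    have h3 := h1.mul hd hθ h2
    rw [true_iff] at h3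
    rwa [map_mul, parS_scalar, one_mul]
  by_cases h2 : (2 : F) = 0
  · obtain ⟨u, s, rfl⟩ := exists_scalar_iso_of_two hE h2 g
    exact hsi u s
  by_cases hsq : IsSquare (mult hE.exists_ne g : F)
  · obtain ⟨r, hr⟩ := hsq
    have hr0 : r ≠ 0 := fun h => (mult hE.exists_ne g).ne_zero (by rw [hr, h, mul_zero])
    obtain ⟨s, rfl⟩ := exists_iso_of_mult hQ hE.exists_ne g (Units.mk0 r hr0)
      (Units.ext (by rw [hr, Units.val_pow_eq_pow_val, Units.val_mk0, sq]))
    exact hsi _ s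
  obtain ⟨ε, hε⟩ := exists_not_isSquare (F := F) h2
  have hε0 : ε ≠ 0 := fun h => hε (h ▸ IsSquare.zero)
  obtain ⟨α₁, α₂, hα⟩ := exists_value_binary hab hε0
  let S : Sim (quadFormMinus m F a b) :=
    ⟨simGL α₁ α₂ ε hε0 hα, Units.mk0 ε hε0, AutOrthMinus.simGL_similarity α₁ α₂ ε hε0 hα⟩
  have hS : mult hE.exists_ne S = Units.mk0 ε hε0 :=
    Units.ext (mult_eq _ _ _ (AutOrthMinus.simGL_similarity α₁ α₂ ε hε0 hα))
  obtain ⟨r, hr⟩ : IsSquare (mult hE.exists_ne (g * S⁻¹) : F) := by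
    rw [map_mul, map_inv, hS, Units.val_mul, Units.val_inv_eq_inv_val, Units.val_mk0]
    exact isSquare_mul_of_not hsq fun h => hε (isSquare_inv.1 h)
  have hr0 : r ≠ 0 := fun h => (mult hE.exists_ne (g * S⁻¹)).ne_zero (by rw [hr, h, mul_zero])
  obtain ⟨s, hs⟩ := exists_iso_of_mult hQ hE.exists_ne (g * S⁻¹) (Units.mk0 r hr0)
    (Units.ext (by rw [hr, Units.val_pow_eq_pow_val, Units.val_mk0, sq]))
  have h1 := AutOrthMinus.parVal_sim (m := m) hd hθ hab α₁ α₂ ε hε0 hα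
  have hSp : (parS hE S = 1) = Even (m + 1) := propext (by
    rw [parS_eq_one_iff hE h2, hS]
    change (simMat m a b α₁ α₂ ε).det = _ ↔ _
    rw [det_simMat _ _ _ hα, Units.val_mk0, mul_eq_right₀ (pow_ne_zero _ hε0)]
    rcases Nat.even_or_odd (m + 1) with h | h
    · exact iff_of_true h.neg_one_pow h
    · refine iff_of_false ?_ (Nat.not_even_iff_odd.2 h)
      rw [h.neg_one_pow]
      exact fun h' => h2 (by linear_combination -h'))
  rw [← hSp] at h1
  have h3 := (hsi (Units.mk0 r hr0) s).mul hd hθ h1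
  rw [← hs] at h3
  rw [show g = g * S⁻¹ * S from (inv_mul_cancel_right g S).symm]
  have e : (parS hE (g * S⁻¹ * S) = 1) = ((parS hE (g * S⁻¹) = 1) ↔ (parS hE S = 1)) := propext (by
    rw [map_mul]
    generalize parS hE (g * S⁻¹) = x
    generalize parS hE S = y
    revert x y; decide)
  rw [e]
  exact h3

theorem preservesMinus_iff (g : Sim (quadFormMinus m F a b)) :
    PreservesSingularClassesMinus m a b (g.1 : Matrix (Idx m) (Idx m) F) ↔
      parS (evenMinus hm (isNondegQF_quadFormMinus m a b hab)) g = 1 := by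
  have hd := four_mul_sub_sq_ne_zero hab
  have key : ∀ (K : Type u) [Field K] [Algebra F K], finrank F K = 2 →
      (PreservesSingularClasses (quadFormMinus m K (algebraMap F K a) (algebraMap F K b))
        ((g.1 : Matrix (Idx m) (Idx m) F).map (algebraMap F K)) ↔
          parS (evenMinus hm (isNondegQF_quadFormMinus m a b hab)) g = 1) := by
    intro K _ _ hK
    haveI : FiniteDimensional F K := FiniteDimensional.of_finrank_eq_succ hK
    haveI : Finite K := Module.finite_of_finite F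
    obtain ⟨θ, hθ⟩ := exists_root_of_card (algebraMap F K)
      (by rw [Module.natCard_eq_pow_finrank (K := F) (V := K), hK]) a b
    obtain ⟨h1, h3⟩ := hasPar_parS hm hab g (algebraMap F K) θ hθ
    exact ((AutOrthMinus.preservesSingularClasses_iff (AutOrthMinus.nondeg_map hd) h1
      (AutOrthMinus.isMaxTS_cutMap _ hθ))).trans h3
  constructor
  · rintro ⟨K, _, _, hK, h⟩
    exact (key K hK).1 h
  · intro ht
    obtain ⟨K, _, _, hK⟩ := AutOrthMinus.exists_quadratic_extension hab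
    exact ⟨K, _, _, hK, (key K hK).2 ht⟩

theorem inndiag_minus_eq :
    inndiagPOmegaMinus m F a b = diagAut (evenMinus hm (isNondegQF_quadFormMinus m a b hab)) :=
  AutOrth.closure_eq_map _ _ fun β =>
    ⟨fun ⟨g, hg, hp, h⟩ => ⟨⟨g, hg⟩, (preservesMinus_iff hm hab ⟨g, hg⟩).1 hp, (AutOrth.induced_iff hg β).1 h⟩,
      fun ⟨g, hp, h⟩ => ⟨g.1, g.2, (preservesMinus_iff hm hab g).2 hp, (AutOrth.induced_iff g.2 β).2 h⟩⟩

end CfsgLib.AutOrthField

namespace CfsgLib.AutOrthField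

open Module Cfsg Cfsg.Geo CfsgLib.OrthGeo CfsgLib.Classical.Orth
open CfsgLib.AutOrthMinus (Idx)
open CfsgLib.AutOrth (IsSemisim omegaToS conjS conjS_omega)
open scoped Matrix MatrixGroups

universe u

/-- The image of the inner-diagonal group under a transport. -/
theorem map_diagAut {F : Type u} [Field F] [Finite F] {ι ι' : Type} [Fintype ι] [DecidableEq ι] [Fintype ι']
    [DecidableEq ι'] {Q : (ι → F) → F} {Q' : (ι' → F) → F} {k : ℕ} (L : (ι → F) ≃ₗ[F] (ι' → F)) {c : Fˣ}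
    (hL : ∀ v, Q' (L v) = (c : F) * Q v) (hE : EvenForm Q k) (hE' : EvenForm Q' k) :
    (diagAut hE).map (autCongr L hL).toMonoidHom = diagAut hE' := by
  ext β
  constructor
  · rintro ⟨_, ⟨g, hg, rfl⟩, rfl⟩
    exact ⟨simCongr L hL g, (parS_simCongr L hL hE hE' g).trans hg, (autCongr_conjS L hL g).symm⟩
  · rintro ⟨g', hg', rfl⟩
    obtain ⟨g, rfl⟩ := (simCongr L hL).surjective g'
    exact ⟨conjS Q g, ⟨g, (parS_simCongr L hL hE hE' g).symm.trans hg', rfl⟩, autCongr_conjS L hL g⟩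

variable {F : Type u} [Field F] [Fintype F] {m : ℕ} {a b : F}

/-- A field automorphism of `PΩ⁻` in a model adapted to it. -/
theorem minus_model (hm : 3 ≤ m) (hab : ∀ x y : F, x ^ 2 + a * x * y + b * y ^ 2 = 0 → x = 0 ∧ y = 0)
    {x : MulAut (POmega F (quadFormMinus m F a b))} (hx : IsFieldAutClassPOmegaMinus m x) {r : ℕ}
    (hxr : orderOf x = r) :
    ∃ (a' b' : F) (hab' : ∀ x y : F, x ^ 2 + a' * x * y + b' * y ^ 2 = 0 → x = 0 ∧ y = 0)
      (Φ : MulAut (POmega F (quadFormMinus m F a b)) ≃* MulAut (POmega F (quadFormMinus m F a' b')))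
      (σ : RingAut F) (hσ : SigmaInv (quadFormMinus m F a' b') σ)
      (α : MulAut (POmega F (quadFormMinus m F a' b'))),
      σ a' = a' ∧ σ b' = b' ∧ orderOf σ = r ∧ α * Φ x * α⁻¹ = mapP hσ ∧
      (inndiagPOmegaMinus m F a b).map Φ.toMonoidHom = inndiagPOmegaMinus m F a' b' ∧
      (Inn (POmega F (quadFormMinus m F a b))).map Φ.toMonoidHom = Inn (POmega F (quadFormMinus m F a' b')) := by
  obtain ⟨a', b', ψ, σ, hab', -, ha, hb, hφ⟩ := hx
  have hQ := isNondegQF_quadFormMinus m a b hab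
  have hQ' := isNondegQF_quadFormMinus m a' b' hab'
  have hns : ∀ {c d : F}, (∀ x y : F, x ^ 2 + c * x * y + d * y ^ 2 = 0 → x = 0 ∧ y = 0) →
      ¬ HasSingular (quadFormMinus m F c d) (m + 1) := by
    rintro c d hcd ⟨U, hU, hU0⟩
    have := AutOrthMinus.minus_ts_le hcd hU0
    omega
  obtain ⟨P, hP⟩ := exists_gl_isometry hQ hQ' (m := m + 1) (by simp; omega) (iff_of_false (hns hab) (hns hab'))
  let L : (Idx m → F) ≃ₗ[F] (Idx m → F) := LinearEquiv.ofLinear (Matrix.toLin' (P : Matrix (Idx m) (Idx m) F))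
    (Matrix.toLin' ((P⁻¹ : GL (Idx m) F) : Matrix (Idx m) (Idx m) F))
    (by rw [← Matrix.toLin'_mul, Units.mul_inv, Matrix.toLin'_one])
    (by rw [← Matrix.toLin'_mul, Units.inv_mul, Matrix.toLin'_one])
  have hL : ∀ v, quadFormMinus m F a' b' (L v) = ((1 : Fˣ) : F) * quadFormMinus m F a b v := fun v => by
    rw [Units.val_one, one_mul]; exact hP v
  have hσ := sigmaInv_minus (m := m) ha hb
  set ψ₀ := pCongr L hL
  let α : MulAut (POmega F (quadFormMinus m F a' b')) := ψ₀.symm.trans ψ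
  have hα : α * autCongr L hL x * α⁻¹ = mapP hσ := by
    rw [← (isFieldAutOf_iff hσ _).1 hφ]
    refine MulEquiv.ext fun z => ?_
    obtain ⟨w, rfl⟩ := ψ.surjective z
    have e1 : α⁻¹ (ψ w) = ψ₀ w := by
      show ψ₀ (ψ.symm (ψ w)) = _
      rw [ψ.symm_apply_apply]
    rw [MulAut.mul_apply, MulAut.mul_apply, e1, autCongr_apply]
    show ψ (ψ₀.symm (ψ₀ (x w))) = ψ (x (ψ.symm (ψ w)))
    rw [MulEquiv.symm_apply_apply, MulEquiv.symm_apply_apply]
  refine ⟨a', b', hab', autCongr L hL, σ, hσ, α, ha, hb, ?_, hα, ?_, map_inn_autCongr L hL⟩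
  · rw [← orderOf_mapP hQ' (evenMinus (by omega) hQ').five hσ, ← hα, AutPSp.orderOf_conj,
      MulEquiv.orderOf_eq, hxr]
  · rw [inndiag_minus_eq (by omega) hab, inndiag_minus_eq (by omega) hab', map_diagAut]

set_option maxHeartbeats 1000000 in
/-- The coset statement for `PΩ⁻`. -/
theorem coset_conj_minus (hm : 3 ≤ m) (hab : ∀ x y : F, x ^ 2 + a * x * y + b * y ^ 2 = 0 → x = 0 ∧ y = 0)
    (x δ : MulAut (POmega F (quadFormMinus m F a b))) (hx : IsFieldAutClassPOmegaMinus m x) {r : ℕ}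
    (hr : r.Prime) (hxr : orderOf x = r) (hδ : δ ∈ inndiagPOmegaMinus m F a b) :
    orderOf (δ * x) = r ↔ IsConjUnder (inndiagPOmegaMinus m F a b) x (δ * x) := by
  obtain ⟨a', b', hab', Φ, σ, hσ, α, -, -, hσr, hα, hG, -⟩ := minus_model hm hab hx hxr
  have hm2 : 2 ≤ m := by omega
  have hE := evenMinus hm2 (isNondegQF_quadFormMinus m a' b' hab')
  obtain ⟨t, ht, -, htp⟩ := exists_fixed_reflection hE hσ
  rw [← one_mul (mapP hσ), ← map_one (conjS _)] at hα
  have hrel : HasRelated hσ r 1 (properS hE) := by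
    rcases hr.eq_two_or_odd' with h | h
    · subst h; exact hasRelated_two hE hσ hσr (map_one _) (one_mul 1)
    · exact hasRelated_odd hE hσ hσr h
  have hδ' : Φ δ ∈ diagAut hE := by
    rw [← inndiag_minus_eq hm2 hab', ← hG]
    exact ⟨δ, hδ, rfl⟩
  rw [← MulEquiv.orderOf_eq Φ, ← isConjUnder_map Φ, hG, inndiag_minus_eq hm2 hab', map_mul]
  exact coset_conj_base hE (AutOrthMinus.isSemisim_minus hm hab') hσ hσr hr.pos ht (Commute.one_right t).eq htp
    hrel hα (by rw [MulEquiv.orderOf_eq, hxr]) hδ'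

/-- The field automorphism statement for `PΩ⁻`. -/
theorem field_minus {p f : ℕ} [Fact p.Prime] (hF : Fintype.card F = p ^ f) (hf : 1 ≤ f) (hm : 3 ≤ m)
    (hab : ∀ x y : F, x ^ 2 + a * x * y + b * y ^ 2 = 0 → x = 0 ∧ y = 0)
    (x : MulAut (POmega F (quadFormMinus m F a b))) (hx : IsFieldAutClassPOmegaMinus m x) {r : ℕ}
    (hr : r.Prime) (hxr : orderOf x = r) (F₀ : Type*) [Field F₀] [Fintype F₀]
    (hF₀ : Fintype.card F₀ = p ^ (f / r)) :
    Odd r ∧ r ∣ f ∧ (∃ a₀ b₀ : F₀, (∀ z₁ z₂ : F₀, z₁ ^ 2 + a₀ * z₁ * z₂ + b₀ * z₂ ^ 2 = 0 → z₁ = 0 ∧ z₂ = 0) ∧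
      Nonempty (↥(inndiagPOmegaMinus m F a b ⊓ Subgroup.centralizer {x}) ≃*
        ↥(inndiagPOmegaMinus m F₀ a₀ b₀))) ∧
      splitClassCount (inndiagPOmegaMinus m F a b) (Inn (POmega F (quadFormMinus m F a b))) x = 1 := by
  obtain ⟨a', b', hab', Φ, σ, hσ, α, ha, hb, hσr, hα, hG, hI⟩ := minus_model hm hab hx hxr
  have hrf : r ∣ f := AutPSL.even_of_involution hF hf hσr
  obtain ⟨e, he⟩ := AutPSL.exists_fixed_embedding hF hσr hr.pos hrf F₀ hF₀
  obtain ⟨a₀, rfl⟩ := (he a').1 ha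
  obtain ⟨b₀, rfl⟩ := (he b').1 hb
  have hab₀ : ∀ z₁ z₂ : F₀, z₁ ^ 2 + a₀ * z₁ * z₂ + b₀ * z₂ ^ 2 = 0 → z₁ = 0 ∧ z₂ = 0 := fun z₁ z₂ h => by
    obtain ⟨h1, h2⟩ := hab' (e z₁) (e z₂)
      (by rw [← map_pow, ← map_pow, ← map_mul, ← map_mul, ← map_mul, ← map_add, ← map_add, h, map_zero])
    exact ⟨e.injective (by rw [h1, map_zero]), e.injective (by rw [h2, map_zero])⟩
  have hodd : Odd r := by
    rcases hr.eq_two_or_odd' with h | h
    · subst h
      exfalso
      obtain ⟨θ, hθ⟩ := exists_root_of_card e (by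
        rw [Nat.card_eq_fintype_card, Nat.card_eq_fintype_card, hF, hF₀, ← pow_mul, Nat.div_mul_cancel hrf]) a₀ b₀
      exact one_ne_zero (hab' θ 1 (by linear_combination hθ)).2
    · exact h
  have hm2 : 2 ≤ m := by omega
  have hE := evenMinus hm2 (isNondegQF_quadFormMinus m (e a₀) (e b₀) hab')
  have hE₀ := evenMinus hm2 (isNondegQF_quadFormMinus m a₀ b₀ hab₀)
  have hxeq : Φ x = α⁻¹ * mapP hσ * α⁻¹⁻¹ := by rw [← hα]; group
  haveI : (diagAut hE).Normal := diagAut_normal hE (AutOrthMinus.isSemisim_minus hm hab')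
  haveI : (Inn (POmega F (quadFormMinus m F (e a₀) (e b₀)))).Normal := inn_normal
  rw [inndiag_minus_eq hm2 hab'] at hG
  refine ⟨hodd, hrf, ⟨a₀, b₀, hab₀, ?_⟩, ?_⟩
  · rw [inndiag_minus_eq hm2 hab₀]
    obtain ⟨e0⟩ := inf_centralizer_map Φ (inndiagPOmegaMinus m F a b) x
    rw [hG, hxeq] at e0
    obtain ⟨e1⟩ := AutPSp.inf_centralizer_aut (diagAut hE) (mapP hσ) α⁻¹
    obtain ⟨e2⟩ := proper_centralizer e hE hE₀ (res_minus e a₀ b₀) hσ hσr hr.pos he
    exact ⟨e0.symm.trans (e1.trans e2)⟩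
  · rw [← splitClassCount_map Φ, hG, hI, hxeq, AutPSp.splitClassCount_aut]
    exact split_one e hE hE₀ (res_minus e a₀ b₀) hσ hσr hr.pos he (exists_mult_minus hm2 hab₀)
      fun z hz => (isSquare_map_of_odd e (hσr.symm ▸ hodd) he).1 hz

end CfsgLib.AutOrthField
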