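import Cfsg.Agent.AutOrthField.PlusField
import Cfsg.Agent.AutOrthField.MinusField

/-!
# Involutory graph-field automorphisms of `PΩ⁺`

All of them are conjugate, under the inner-diagonal group, to the swap of the last hyperbolic pair times the
involutory field automorphism, which over the quadratic extension is the field automorphism of a minus form.
-/

set_option autoImplicit false
set_option linter.unusedSectionVars false

namespace CfsgLib.AutOrthField

open Module Cfsg Cfsg.Geo CfsgLib.OrthGeo CfsgLib.Classical.Orth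
open CfsgLib.AutOrthMinus (Idx)
open CfsgLib.AutOrth (IsSemisim conjS sqChar sqChar_eq_one_iff)
open CfsgLib.AutOrth.Plus (fieldHom mapS)
open scoped Matrix MatrixGroups

variable {n : ℕ} {F : Type*} [Field F]

local notation "J" => (Fin (n + 1) ⊕ Fin (n + 1))
local notation "QP" => Cfsg.quadFormPlus (n + 1) F

/-- The difference of the last hyperbolic pair. -/
def lastDiff (n : ℕ) (F : Type*) [Field F] : Fin (n + 1) ⊕ Fin (n + 1) → F :=
  Sum.elim (Pi.single (Fin.last n) 1) (Pi.single (Fin.last n) (-1))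

theorem q_lastDiff : QP (lastDiff n F) = -1 := by
  simp [quadFormPlus, lastDiff, Pi.single_apply]

theorem lastDiff_ne : QP (lastDiff n F) ≠ 0 := by rw [q_lastDiff]; exact neg_ne_zero.2 one_ne_zero

theorem lastDiff_fixed (τ : RingAut F) (i : J) : τ (lastDiff n F i) = lastDiff n F i := by
  rcases i with i | i <;> by_cases h : i = Fin.last n <;> simp [lastDiff, Pi.single_apply, h]

/-- The swap of the last hyperbolic pair. -/
noncomputable def swapLast (n : ℕ) (F : Type*) [Field F] : Sim (quadFormPlus (n + 1) F) :=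
  reflS (isNondegQF_quadFormPlus (n + 1)) (lastDiff_ne (n := n) (F := F))

theorem bform_lastDiff (x : J → F) :
    bform (isNondegQF_quadFormPlus (F := F) (n + 1)) (lastDiff n F) x =
      x (.inr (Fin.last n)) - x (.inl (Fin.last n)) := by
  simp only [bform_apply, QuadraticMap.polar, quadFormPlus, Pi.add_apply, ← Finset.sum_sub_distrib]
  rw [Fintype.sum_eq_single (Fin.last n)]
  · simp [lastDiff]; ring
  · intro i hi; simp [lastDiff, hi]

theorem swapLast_mulVec (x : J → F) :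
    ((swapLast n F).1 : Matrix J J F) *ᵥ x =
      Sum.elim (Fin.snoc (fun i => x (.inl i.castSucc)) (x (.inr (Fin.last n))))
        (Fin.snoc (fun i => x (.inr i.castSucc)) (x (.inl (Fin.last n)))) := by
  change ((refl (isNondegQF_quadFormPlus (n + 1)) (lastDiff_ne (n := n) (F := F)) : isometryGroup F QP).1 :
    Matrix J J F) *ᵥ x = _
  rw [coe_refl, reflection_mulVec, bform_lastDiff, q_lastDiff]
  funext i
  rcases i with i | i <;> refine Fin.lastCases ?_ (fun j => ?_) i <;> simp [lastDiff]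

theorem isNondegQF_linearEquiv {ι ι' : Type} {Q : (ι → F) → F} (hQ : IsNondegenerateQuadraticForm Q)
    (L : (ι' → F) ≃ₗ[F] (ι → F)) : IsNondegenerateQuadraticForm (fun v => Q (L v)) := by
  have hB := hQ.polar_bilinear
  have hp : ∀ u v, QuadraticMap.polar (fun v => Q (L v)) u v = QuadraticMap.polar Q (L u) (L v) := fun u v => by
    simp only [QuadraticMap.polar, map_add]
  refine ⟨fun a v => by rw [map_smul, hQ.smul],
    ⟨fun x y v => ?_, fun a x v => ?_, fun v x y => ?_, fun a v x => ?_⟩, fun v hv => ?_⟩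
  · rw [hp, hp, hp, map_add, hB.add_left]
  · rw [hp, hp, map_smul, hB.smul_left]
  · rw [hp, hp, hp, map_add, hB.add_right]
  · rw [hp, hp, map_smul, hB.smul_right]
  · obtain ⟨⟨y, hy⟩, z, hz⟩ := hQ.nondegenerate _ (show L v ≠ 0 from fun h => hv (L.map_eq_zero_iff.1 h))
    exact ⟨⟨L.symm y, by rw [hp, L.apply_symm_apply]; exact hy⟩, L.symm z,
      by rw [hp, L.apply_symm_apply]; exact hz⟩

theorem exists_anisotropic_binary [Finite F] :
    ∃ a b : F, ∀ z₁ z₂ : F, z₁ ^ 2 + a * z₁ * z₂ + b * z₂ ^ 2 = 0 → z₁ = 0 ∧ z₂ = 0 := by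
  obtain ⟨c, hc⟩ := exists_no_root (F := F)
  refine ⟨1, c, fun z₁ z₂ h => ?_⟩
  by_cases h2 : z₂ = 0
  · subst h2
    exact ⟨(pow_eq_zero_iff two_ne_zero).1 (by linear_combination h), rfl⟩
  · refine absurd ?_ (hc (z₁ / z₂))
    field_simp
    linear_combination h

section Model

variable (θ θ' : F) (hθ : θ ≠ θ')

/-- The last pair as a binary space. -/
noncomputable def modelL : (Idx n → F) ≃ₗ[F] (J → F) where
  toFun v := Sum.elim (Fin.snoc (fun i => v (.inl (.inl i))) (v (.inr 0) - θ * v (.inr 1)))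
    (Fin.snoc (fun i => v (.inl (.inr i))) (v (.inr 0) - θ' * v (.inr 1)))
  invFun w := Sum.elim (Sum.elim (fun i => w (.inl i.castSucc)) (fun i => w (.inr i.castSucc)))
    ![w (.inl (Fin.last n)) + θ * ((w (.inr (Fin.last n)) - w (.inl (Fin.last n))) / (θ - θ')),
      (w (.inr (Fin.last n)) - w (.inl (Fin.last n))) / (θ - θ')]
  map_add' v w := by
    funext i
    rcases i with i | i <;> refine Fin.lastCases ?_ (fun j => ?_) i <;> simp <;> ring
  map_smul' c v := by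
    funext i
    rcases i with i | i <;> refine Fin.lastCases ?_ (fun j => ?_) i <;> simp <;> ring
  left_inv v := by
    have := sub_ne_zero.2 hθ
    funext i
    rcases i with (i | i) | i
    · simp
    · simp
    · fin_cases i <;> simp <;> field_simp <;> ring
  right_inv w := by
    have := sub_ne_zero.2 hθ
    funext i
    rcases i with i | i <;> refine Fin.lastCases ?_ (fun j => ?_) i <;> simp <;> field_simp <;> ring

theorem modelL_apply (v : Idx n → F) :
    modelL θ θ' hθ v = Sum.elim (Fin.snoc (fun i => v (.inl (.inl i))) (v (.inr 0) - θ * v (.inr 1)))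
      (Fin.snoc (fun i => v (.inl (.inr i))) (v (.inr 0) - θ' * v (.inr 1))) := rfl

theorem q_modelL {a b : F} (ha : θ + θ' = -a) (hb : θ * θ' = b) (v : Idx n → F) :
    QP (modelL θ θ' hθ v) = quadFormMinus n F a b v := by
  simp only [quadFormPlus, quadFormMinus, modelL_apply, Sum.elim_inl, Sum.elim_inr, Fin.sum_univ_castSucc,
    Fin.snoc_castSucc, Fin.snoc_last]
  linear_combination (-(v (.inr 0) * v (.inr 1))) * ha + v (.inr 1) ^ 2 * hb

theorem modelL_map {σ : RingAut F} (h : σ θ = θ') (h' : σ θ' = θ) (v : Idx n → F) :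
    modelL θ θ' hθ (fun i => σ (v i)) =
      ((swapLast n F).1 : Matrix J J F) *ᵥ (fun i => σ (modelL θ θ' hθ v i)) := by
  rw [swapLast_mulVec]
  funext i
  rcases i with i | i <;> refine Fin.lastCases ?_ (fun j => ?_) i <;> simp [modelL_apply, h, h']

end Model

/-- The model involutory graph-field automorphism. -/
noncomputable def baseGF (σ : RingAut F) : MulAut (POmega F QP) :=
  conjS QP (swapLast n F) * mapP (AutOrth.Plus.sigmaInv σ)

variable [hm : Fact (4 ≤ n + 1)] [Fintype F]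

theorem conj_alg {X : Type*} [Group X] {α x c g z h t : X} (hα : α * x * α⁻¹ = c) (hz : c * g = g * z)
    (hτ : α⁻¹ * g = h * t) (hc : t * z = z * t) : x = h * z * h⁻¹ := by
  have e : x = (α⁻¹ * g) * z * (α⁻¹ * g)⁻¹ := by
    rw [mul_assoc α⁻¹, ← hz, ← hα]; group
  rw [e, hτ, mul_assoc h, hc]; group

theorem conj_shift {X : Type*} [Group X] {z s h k : X} (hk : k = h * s) (hs : s * z = z * s) :
    h * z * h⁻¹ = k * z * k⁻¹ := by
  rw [hk, mul_assoc h s z, hs]; group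

theorem comm_prod {X : Type*} [Group X] {a b c : X} (h1 : a * b = b * a) (h2 : a * c = c * a) :
    a * (b * c) = b * c * a := by
  rw [← mul_assoc, h1, mul_assoc, h2, mul_assoc]

omit hm [Fintype F] in
theorem fieldHom_comm {σ τ : RingAut F} (hστ : τ * σ = σ * τ) (ρ : Sim QP) (hρ : mapS τ ρ = ρ) :
    fieldHom (n + 1) τ * (conjS QP ρ * fieldHom (n + 1) σ) =
      conjS QP ρ * fieldHom (n + 1) σ * fieldHom (n + 1) τ := by
  exact comm_prod (X := MulAut (POmega F QP))
    ((AutOrth.Plus.fieldHom_mul_conjS τ ρ).trans (congrArg (fun t => conjS QP t * fieldHom (n + 1) τ) hρ))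
    ((map_mul (fieldHom (n + 1)) τ σ).symm.trans
      ((congrArg (fieldHom (n + 1)) hστ).trans (map_mul (fieldHom (n + 1)) σ τ)))

omit hm [Fintype F] in
theorem conjS_comm {ι : Type} [Fintype ι] [DecidableEq ι] {Q : (ι → F) → F} {σ : RingAut F} (hσ : SigmaInv Q σ)
    (ρ : Sim Q) (h0 : mapSim hσ ρ = ρ) : conjS Q ρ * (conjS Q ρ * mapP hσ) = conjS Q ρ * mapP hσ * conjS Q ρ := by
  rw [mul_assoc (conjS Q ρ) (mapP hσ), mapP_mul_conjS, h0]

theorem par_swapLast : parS (evenPlus (F := F) (three_le (m := n + 1))) (swapLast n F) ≠ 1 :=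
  parS_reflS _ _

/-- Every involutory graph-field automorphism is conjugate to the model under the inner-diagonal group. -/
theorem graphField_normal_form {p f : ℕ} [Fact p.Prime] (hF : Fintype.card F = p ^ f) (hf : 1 ≤ f)
    (hall : ∀ β : MulAut (POmega F QP), IsSemisim QP β) {x : MulAut (POmega F QP)}
    (hx : IsGraphFieldAutClassPOmegaPlus (n + 1) x) (hx2 : orderOf x = 2) :
    ∃ σ : RingAut F, orderOf σ = 2 ∧ IsConjUnder (inndiagPOmegaPlus (n + 1) F) (baseGF σ) x := by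
  obtain ⟨-, α, σ, ρ, hσ2, hρ, hρ2, hρp, hα⟩ := graphField_base hx Nat.prime_two hx2
  set hE := evenPlus (F := F) (three_le (m := n + 1))
  have hσ := AutOrth.Plus.sigmaInv (m := n + 1) σ
  have h0 : mapSim hσ (swapLast n F) = swapLast n F := mapSim_reflS _ hσ _ (lastDiff_fixed σ)
  have h02 : swapLast n F * swapLast n F = 1 := reflS_mul_self _ _
  obtain ⟨g, hg⟩ := hasRelated_two hE hσ hσ2 h0 h02 (ρ * swapLast n F)
    (by rw [MonoidHom.mem_ker, map_mul]; exact z2_mul hρp par_swapLast)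
    (by rw [mul_assoc, h02, mul_one, twist_two, hρ, hρ2])
  rw [mul_assoc ρ, h02, mul_one] at hg
  have hz : conjS QP ρ * mapP hσ * conjS QP g = conjS QP g * baseGF σ := by
    rw [mul_assoc, mapP_mul_conjS hσ g, ← mul_assoc, ← map_mul (conjS QP), hg, map_mul (conjS QP), mul_assoc]
    rfl
  obtain ⟨h, τ, hτ⟩ := AutOrth.Plus.exists_of_isSemisim (hall (α⁻¹ * conjS QP g))
  have hcomm : fieldHom (n + 1) τ * baseGF σ = baseGF σ * fieldHom (n + 1) τ := by
    have hστ : τ * σ = σ * τ := by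
      rw [← mul_inv_eq_iff_eq_mul]
      exact AutPSL.involution_unique hF hf (by rw [AutPSp.orderOf_conj, hσ2]) hσ2
    exact fieldHom_comm hστ (swapLast n F) (mapSim_reflS _ (AutOrth.Plus.sigmaInv τ) _ (lastDiff_fixed τ))
  have hsw : conjS QP (swapLast n F) * baseGF σ = baseGF σ * conjS QP (swapLast n F) :=
    conjS_comm hσ (swapLast n F) h0
  have hx' : x = conjS QP h * baseGF σ * (conjS QP h)⁻¹ :=
    conj_alg (X := MulAut (POmega F QP)) hα hz hτ hcomm
  refine ⟨σ, hσ2, ?_⟩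
  rw [inndiag_plus_eq]
  by_cases hp : parS hE h = 1
  · exact ⟨conjS QP h, ⟨h, hp, rfl⟩, hx'⟩
  · refine ⟨conjS QP (h * swapLast n F), ⟨_, ?_, rfl⟩, ?_⟩
    · change parS hE _ = 1
      rw [map_mul]
      exact z2_mul hp par_swapLast
    · exact hx'.trans (conj_shift (X := MulAut (POmega F QP)) (map_mul (conjS QP) h (swapLast n F)) hsw)

/-- The rotation of the binary part by an element of norm `ν`. -/
theorem exists_rot {F₀ : Type*} [Field F₀] [Finite F₀] (hn : 2 ≤ n) {a b : F₀}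
    (hab : ∀ x y : F₀, x ^ 2 + a * x * y + b * y ^ 2 = 0 → x = 0 ∧ y = 0) (h2 : (2 : F₀) ≠ 0) {α₁ α₂ : F₀}
    (ν : F₀ˣ) (hα : α₁ ^ 2 + a * α₁ * α₂ + b * α₂ ^ 2 = ν) :
    ∃ s : Sim (quadFormMinus n F₀ a b),
      parS (evenMinus hn (isNondegQF_quadFormMinus n a b hab)) s = 1 ∧
      mult (evenMinus hn (isNondegQF_quadFormMinus n a b hab)).exists_ne s = ν ∧
      (s.1 : Matrix (Idx n) (Idx n) F₀) =
        Matrix.fromBlocks (Matrix.fromBlocks 1 0 0 ((ν : F₀) • 1)) 0 0 !![α₁, -(b * α₂); α₂, α₁ + a * α₂] := by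
  set M : Matrix (Idx n) (Idx n) F₀ :=
    Matrix.fromBlocks (Matrix.fromBlocks 1 0 0 ((ν : F₀) • 1)) 0 0 !![α₁, -(b * α₂); α₂, α₁ + a * α₂] with hM
  have hdet : M.det = (ν : F₀) ^ (n + 1) := by
    rw [hM, Matrix.det_fromBlocks_zero₂₁, Matrix.det_fromBlocks_zero₂₁, Matrix.det_one, one_mul, Matrix.det_smul,
      Matrix.det_one, mul_one, Fintype.card_fin, Matrix.det_fin_two]
    simp only [Matrix.of_apply, Matrix.cons_val', Matrix.cons_val_zero, Matrix.cons_val_one, Matrix.empty_val',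
      Matrix.cons_val_fin_one]
    rw [pow_succ]
    linear_combination (ν : F₀) ^ n * hα
  have hq : ∀ v, quadFormMinus n F₀ a b (M *ᵥ v) = (ν : F₀) * quadFormMinus n F₀ a b v := fun v => by
    simp [hM, quadFormMinus, Matrix.fromBlocks_mulVec, Matrix.smul_mulVec, Finset.mul_sum, mul_add,
      Matrix.vecHead, Matrix.vecTail, mul_left_comm]
    linear_combination (v (.inr 0) ^ 2 + a * v (.inr 0) * v (.inr 1) + b * v (.inr 1) ^ 2) * hα
  let s : Sim (quadFormMinus n F₀ a b) :=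
    ⟨Matrix.GeneralLinearGroup.mkOfDetNeZero M (by rw [hdet]; exact pow_ne_zero _ ν.ne_zero), ν, hq⟩
  have hm' : mult (evenMinus hn (isNondegQF_quadFormMinus n a b hab)).exists_ne s = ν :=
    Units.ext (mult_eq _ _ _ hq)
  refine ⟨s, (parS_eq_one_iff _ h2 s).2 ?_, hm', rfl⟩
  rw [hm']
  exact hdet

theorem levi_class_snd (A : GL (Fin (n + 1)) F)
    (hp : (classHom AutOrth.Plus.hQ AutOrth.Plus.hexc (CfsgLib.Char2Forms.levi A)).1 = 1) :
    (classHom AutOrth.Plus.hQ AutOrth.Plus.hexc (CfsgLib.Char2Forms.levi A)).2 = 1 ↔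
      IsSquare (A : Matrix (Fin (n + 1)) (Fin (n + 1)) F).det := by
  have h := levi_mem_omega_iff (AutOrth.Plus.hexc (F := F) (m := n + 1)) A
  rw [mem_omega_iff AutOrth.Plus.hQ AutOrth.Plus.hexc] at h
  rw [classHom_snd, ← h]
  exact ⟨fun hs => ⟨(classHom_fst AutOrth.Plus.hQ AutOrth.Plus.hexc _).1 hp, hs⟩, And.right⟩

set_option maxHeartbeats 3200000 in
/-- When the rotation by an element of non-square norm is inner. -/
theorem rot_inner_iff {F₀ : Type*} [Field F₀] [Fintype F₀] (e : F₀ →+* F) (hn : 2 ≤ n) {σ : RingAut F}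
    (hσ2 : orderOf σ = 2) (he : ∀ x, σ x = x ↔ ∃ y, e y = x) (hcard : Fintype.card F = Fintype.card F₀ ^ 2)
    (h20 : (2 : F₀) ≠ 0) (θ : F) (hθ : θ ≠ σ θ) {a₀ b₀ : F₀} (hroot : θ ^ 2 + e a₀ * θ + e b₀ = 0)
    (hsum : θ + σ θ = -e a₀) (hprod : θ * σ θ = e b₀)
    (hE' : EvenForm (quadFormMinus n F (e a₀) (e b₀)) (n + 1)) (hE₀ : EvenForm (quadFormMinus n F₀ a₀ b₀) (n + 1))
    (hL : ∀ v, QP (modelL θ (σ θ) hθ v) = ((1 : Fˣ) : F) * quadFormMinus n F (e a₀) (e b₀) v)
    (ν : F₀ˣ) (hν : ¬ IsSquare (ν : F₀)) {α₁ α₂ : F₀} (hα : α₁ ^ 2 + a₀ * α₁ * α₂ + b₀ * α₂ ^ 2 = ν)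
    (s : Sim (quadFormMinus n F₀ a₀ b₀)) (hsp : parS hE₀ s = 1)
    (hsM : (s.1 : Matrix (Idx n) (Idx n) F₀) =
      Matrix.fromBlocks (Matrix.fromBlocks 1 0 0 ((ν : F₀) • 1)) 0 0 !![α₁, -(b₀ * α₂); α₂, α₁ + a₀ * α₂]) :
    conjS (quadFormMinus n F (e a₀) (e b₀)) (liftSim e hE'.nondeg (res_minus e a₀ b₀) s) ∈
        Inn (POmega F (quadFormMinus n F (e a₀) (e b₀))) ↔
      (Odd (n + 1) ∧ Fintype.card F₀ % 4 = 1) := by
  have hI := map_inn_autCongr (modelL θ (σ θ) hθ) hL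
  set L := modelL (n := n) θ (σ θ) hθ
  have hfix : ∀ z : F₀, σ (e z) = e z := fun z => (he _).2 ⟨z, rfl⟩
  have hroot' : σ θ ^ 2 + e a₀ * σ θ + e b₀ = 0 := by
    have h := congrArg σ hroot
    simpa [hfix] using h
  set g' := liftSim e hE'.nondeg (res_minus e a₀ b₀) s with hg'
  set lam : F := e α₁ - θ * e α₂ with hlam
  have hN : lam * σ lam = e (ν : F₀) := by
    have hν' : e α₁ ^ 2 + e a₀ * e α₁ * e α₂ + e b₀ * e α₂ ^ 2 = e (ν : F₀) := by
      have h := congrArg e hα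
      simpa using h
    rw [hlam, map_sub, map_mul, hfix, hfix]
    linear_combination hν' + (-(e α₁ * e α₂)) * hsum + e α₂ ^ 2 * hprod
  have hlam0 : lam ≠ 0 := fun h => (ν.ne_zero : (ν : F₀) ≠ 0) (e.injective (by rw [← hN, h, zero_mul, map_zero]))
  have hlamns : ¬ IsSquare lam := by
    rintro ⟨μ, hμ⟩
    obtain ⟨t, ht⟩ := (he (μ * σ μ)).1 (by
      rw [map_mul, show σ (σ μ) = (σ ^ 2) μ by rw [sq]; rfl, ← hσ2, pow_orderOf_eq_one]
      exact mul_comm _ _)
    refine hν ⟨t, e.injective ?_⟩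
    rw [map_mul, ht, ← hN, hμ, map_mul]
    ring
  let d : Fin (n + 1) → F := Fin.snoc (fun _ => 1) lam
  have hd : ∀ i, d i ≠ 0 := fun i => by refine Fin.lastCases ?_ (fun j => ?_) i <;> simp [d, hlam0]
  let A : GL (Fin (n + 1)) F := ⟨Matrix.diagonal d, Matrix.diagonal (fun i => (d i)⁻¹),
    by simp [Matrix.diagonal_mul_diagonal, hd], by simp [Matrix.diagonal_mul_diagonal, hd]⟩
  have hdetA : (A : Matrix (Fin (n + 1)) (Fin (n + 1)) F).det = lam := by
    change (Matrix.diagonal d).det = _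
    simp [Matrix.det_diagonal, d, Fin.prod_univ_castSucc]
  set eν : Fˣ := Units.map e.toMonoidHom (ν)
  have hg : simCongr L hL g' = AutOrth.Plus.dS eν * AutOrth.Plus.isoToS (CfsgLib.Char2Forms.levi A) := by
    refine Subtype.ext (gl_ext fun w => ?_)
    obtain ⟨v, rfl⟩ := L.surjective w
    rw [coe_simCongr, glCongr_mulVec, Subgroup.coe_mul, Units.val_mul, ← Matrix.mulVec_mulVec]
    change L ((s.1 : Matrix (Idx n) (Idx n) F₀).map e *ᵥ v) =
      Matrix.fromBlocks (1 : Matrix (Fin (n + 1)) (Fin (n + 1)) F) 0 0 ((e (ν : F₀)) • (1 : Matrix (Fin (n + 1)) (Fin (n + 1)) F)) *ᵥ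
        (((CfsgLib.Char2Forms.levi A : isometryGroup F QP) : GL J F) : Matrix J J F) *ᵥ (L v)
    rw [hsM, CfsgLib.Char2Forms.levi_mulVec]
    change _ = Matrix.fromBlocks _ 0 0 _ *ᵥ Sum.elim (Matrix.diagonal d *ᵥ _)
      ((Matrix.diagonal fun i => (d i)⁻¹)ᵀ *ᵥ _)
    funext i
    rcases i with i | i <;> refine Fin.lastCases ?_ (fun j => ?_) i <;>
      simp [L, modelL_apply, d, Matrix.fromBlocks_map, Matrix.fromBlocks_mulVec, Matrix.mulVec_diagonal,
        Matrix.smul_mulVec, Matrix.smul_one_eq_diagonal, Matrix.diagonal_map, Function.comp_def]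
    · rw [hlam]
      linear_combination -(v (.inr 1) * e α₂) * hroot
    · rw [← hN, mul_comm lam (σ lam), mul_assoc (σ lam), mul_inv_cancel_left₀ hlam0, hlam, map_sub, map_mul, hfix, hfix]
      linear_combination -(v (.inr 1) * e α₂) * hroot'

  have hmem : conjS (quadFormMinus n F (e a₀) (e b₀)) g' ∈ Inn (POmega F (quadFormMinus n F (e a₀) (e b₀))) ↔
      conjS QP (simCongr L hL g') ∈ Inn (POmega F QP) := by
    rw [← autCongr_conjS L hL g', ← hI, Subgroup.mem_map_equiv, MulEquiv.symm_apply_apply]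
  have hpar : AutOrth.Plus.par (simCongr L hL g') = 1 := by
    rw [← parS_eq_par, parS_simCongr L hL hE' _, hg', parS_lift e hE' hE₀ (res_minus e a₀ b₀), hsp]
  have hcls : AutOrth.Plus.cls (simCongr L hL g') =
      classHom AutOrth.Plus.hQ AutOrth.Plus.hexc (CfsgLib.Char2Forms.levi A) := by
    rw [hg, AutOrth.Plus.cls_mul, AutOrth.Plus.mult_isoToS, map_one, AutOrth.Plus.cls_dS,
      AutOrth.Plus.cls_isoToS]
    generalize classHom AutOrth.Plus.hQ AutOrth.Plus.hexc (CfsgLib.Char2Forms.levi A) = y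
    revert y; decide
  have hmult : AutOrth.Plus.mult (simCongr L hL g') = eν := by
    rw [hg, map_mul, AutOrth.Plus.mult_dS, AutOrth.Plus.mult_isoToS, mul_one]
  have hfst : (classHom AutOrth.Plus.hQ AutOrth.Plus.hexc (CfsgLib.Char2Forms.levi A)).1 = 1 := by
    rw [← hcls]; exact hpar
  have hsnd : (classHom AutOrth.Plus.hQ AutOrth.Plus.hexc (CfsgLib.Char2Forms.levi A)).2 ≠ 1 := fun h =>
    hlamns (hdetA ▸ (levi_class_snd A hfst).1 h)
  rw [hmem, AutOrth.Plus.conjS_mem_inn_iff, hmult, hcls]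
  constructor
  · rintro ⟨a, ha, hc⟩
    have hc2 := congrArg Prod.snd hc
    rcases Nat.even_or_odd (n + 1) with hev | hodd
    · rw [AutOrth.Plus.pow_even_eq hev] at hc2
      exact absurd hc2 hsnd
    · rw [AutOrth.Plus.pow_odd_eq hodd] at hc2
      have hns : ¬ IsSquare (a : F) := fun h => hsnd (hc2.trans (sqChar_eq_one_iff.2 h))
      rw [isSquare_sqrt_iff e hcard h20 hν (congrArg Units.val ha)] at hns
      have hodd₀ : Fintype.card F₀ % 2 = 1 := FiniteField.odd_card_of_char_ne_two fun h => h20 (by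
        have := ringChar.Nat.cast_ringChar (R := F₀)
        rw [h] at this
        exact_mod_cast this)
      exact ⟨hodd, by omega⟩
  · rintro ⟨hodd, hq₀⟩
    obtain ⟨t, ht⟩ := isSquare_map_of_two e hσ2 he (ν : F₀)
    have ht0 : t ≠ 0 := fun h' => (ν.ne_zero : (ν : F₀) ≠ 0) (e.injective (by rw [ht, h', mul_zero, map_zero]))
    refine ⟨Units.mk0 t ht0, Units.ext ht, Prod.ext hfst ?_⟩
    rw [AutOrth.Plus.pow_odd_eq hodd]
    refine z2_eq (iff_of_false hsnd ?_)
    rw [sqChar_eq_one_iff, Units.val_mk0, isSquare_sqrt_iff e hcard h20 hν ht]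
    omega

set_option maxHeartbeats 1600000 in
/-- The graph-field statement for `PΩ⁺`, in index `n + 1`. -/
theorem graphField_plus {p f : ℕ} [Fact p.Prime] (hF : Fintype.card F = p ^ f) (hf : 1 ≤ f)
    (hall : ∀ β : MulAut (POmega F QP), IsSemisim QP β) (x : MulAut (POmega F QP))
    (hx : IsGraphFieldAutClassPOmegaPlus (n + 1) x) (hx2 : orderOf x = 2) (F₀ : Type*) [Field F₀] [Fintype F₀]
    (hF₀ : Fintype.card F₀ = p ^ (f / 2)) :
    Even f ∧
      (∀ y : MulAut (POmega F QP), IsGraphFieldAutClassPOmegaPlus (n + 1) y → orderOf y = 2 →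
        IsConjUnder (inndiagPOmegaPlus (n + 1) F) x y) ∧
      (∃ a₀ b₀ : F₀, (∀ z₁ z₂ : F₀, z₁ ^ 2 + a₀ * z₁ * z₂ + b₀ * z₂ ^ 2 = 0 → z₁ = 0 ∧ z₂ = 0) ∧
        Nonempty (↥(inndiagPOmegaPlus (n + 1) F ⊓ Subgroup.centralizer {x}) ≃*
          ↥(inndiagPOmegaMinus n F₀ a₀ b₀))) ∧
      (p = 2 → splitClassCount (inndiagPOmegaPlus (n + 1) F) (Inn (POmega F QP)) x = 1) ∧
      ((p ≠ 2 ∧ Odd (n + 1) ∧ p ^ (f / 2) % 4 = 1) →
        splitClassCount (inndiagPOmegaPlus (n + 1) F) (Inn (POmega F QP)) x = 4) ∧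
      ((p ≠ 2 ∧ ¬ (Odd (n + 1) ∧ p ^ (f / 2) % 4 = 1)) →
        splitClassCount (inndiagPOmegaPlus (n + 1) F) (Inn (POmega F QP)) x = 2) := by
  obtain ⟨σ, hσ2, hconj⟩ := graphField_normal_form hF hf hall hx hx2
  have h2f : 2 ∣ f := AutPSL.even_of_involution hF hf hσ2
  refine ⟨even_iff_two_dvd.2 h2f, fun y hy hy2 => ?_, ?_⟩
  · obtain ⟨τ, hτ2, g', hg', rfl⟩ := graphField_normal_form hF hf hall hy hy2
    obtain rfl := AutPSL.involution_unique hF hf hτ2 hσ2
    obtain ⟨g, hg, rfl⟩ := hconj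
    exact ⟨g' * g⁻¹, mul_mem hg' (inv_mem hg), by group⟩
  obtain ⟨G, -, rfl⟩ := hconj
  haveI : (inndiagPOmegaPlus (n + 1) F).Normal := inndiag_plus_eq (m := n + 1) (F := F) ▸ diagAut_normal _ hall
  haveI : (Inn (POmega F QP)).Normal := inn_normal
  obtain ⟨ec⟩ := AutPSp.inf_centralizer_aut (inndiagPOmegaPlus (n + 1) F) (baseGF σ) G
  rw [AutPSp.splitClassCount_aut]
  obtain ⟨e, he⟩ := AutPSL.exists_fixed_embedding hF hσ2 two_pos h2f F₀ hF₀
  have hcard : Fintype.card F = Fintype.card F₀ ^ 2 := by rw [hF, hF₀, ← pow_mul, Nat.div_mul_cancel h2f]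
  obtain ⟨a₀, b₀, hab₀⟩ : ∃ a₀ b₀ : F₀, ∀ z₁ z₂ : F₀,
      z₁ ^ 2 + a₀ * z₁ * z₂ + b₀ * z₂ ^ 2 = 0 → z₁ = 0 ∧ z₂ = 0 := exists_anisotropic_binary
  obtain ⟨θ, hroot⟩ := exists_root_of_card e (by
    rw [Nat.card_eq_fintype_card, Nat.card_eq_fintype_card, hcard]) a₀ b₀
  have hfix : ∀ z : F₀, σ (e z) = e z := fun z => (he _).2 ⟨z, rfl⟩
  have hroot' : σ θ ^ 2 + e a₀ * σ θ + e b₀ = 0 := by
    have h := congrArg σ hroot
    simpa [hfix] using h
  have hθ : θ ≠ σ θ := fun h => by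
    obtain ⟨t, rfl⟩ := (he θ).1 h.symm
    exact one_ne_zero (hab₀ t 1 (e.injective (by
      simp only [map_add, map_mul, map_pow, map_one, map_zero]; linear_combination hroot))).2
  have hsum : θ + σ θ = -e a₀ := by
    refine mul_left_cancel₀ (sub_ne_zero.2 hθ) ?_
    linear_combination hroot - hroot'
  have hprod : θ * σ θ = e b₀ := by linear_combination θ * hsum - hroot
  have hσσ : σ (σ θ) = θ := by
    change (σ * σ) θ = θ
    rw [← sq, ← hσ2, pow_orderOf_eq_one]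
    rfl
  set L := modelL (n := n) θ (σ θ) hθ
  have hL : ∀ v, QP (L v) = ((1 : Fˣ) : F) * quadFormMinus n F (e a₀) (e b₀) v := fun v => by
    rw [Units.val_one, one_mul]; exact q_modelL θ (σ θ) hθ hsum hprod v
  have hn : 2 ≤ n := by have := hm.out; omega
  have hQ' : IsNondegenerateQuadraticForm (quadFormMinus n F (e a₀) (e b₀)) := by
    have h := isNondegQF_linearEquiv (isNondegQF_quadFormPlus (F := F) (n + 1)) L
    rwa [show (fun v => QP (L v)) = quadFormMinus n F (e a₀) (e b₀) from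
      funext (q_modelL θ (σ θ) hθ hsum hprod)] at h
  have hE := evenPlus (F := F) (three_le (m := n + 1))
  have hE' := evenMinus hn hQ'
  have hE₀ := evenMinus hn (isNondegQF_quadFormMinus n a₀ b₀ hab₀)
  have hσ' := sigmaInv_minus (m := n) (hfix a₀) (hfix b₀)
  have hbase : autCongr L hL (mapP hσ') = baseGF σ :=
    autCongr_mapP L hL hσ' _ _ (modelL_map θ (σ θ) hθ rfl hσσ)
  have hG : (diagAut hE').map (autCongr L hL).toMonoidHom = inndiagPOmegaPlus (n + 1) F := by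
    rw [map_diagAut L hL hE' hE, inndiag_plus_eq]
  have hI := map_inn_autCongr L hL
  refine ⟨⟨a₀, b₀, hab₀, ?_⟩, ?_⟩
  · obtain ⟨e1⟩ := inf_centralizer_map (autCongr L hL) (diagAut hE') (mapP hσ')
    rw [hG, hbase] at e1
    obtain ⟨e2⟩ := proper_centralizer e hE' hE₀ (res_minus e a₀ b₀) hσ' hσ2 two_pos he
    rw [inndiag_minus_eq hn hab₀]
    exact ⟨ec.trans (e1.trans e2)⟩
  rw [← hbase, ← hG, ← hI, splitClassCount_map]
  refine ⟨fun hp => ?_, ?_⟩
  · refine split_one e hE' hE₀ (res_minus e a₀ b₀) hσ' hσ2 two_pos he (exists_mult_minus hn hab₀) fun z _ => ?_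
    exact isSquare_of_two_eq_zero (e.injective (by
      rw [map_ofNat, map_zero]; exact (two_eq_zero_iff hF hf).2 hp)) z
  suffices key : p ≠ 2 →
      ((Odd (n + 1) ∧ p ^ (f / 2) % 4 = 1) →
        splitClassCount (diagAut hE') (Inn (POmega F (quadFormMinus n F (e a₀) (e b₀)))) (mapP hσ') = 4) ∧
      (¬ (Odd (n + 1) ∧ p ^ (f / 2) % 4 = 1) →
        splitClassCount (diagAut hE') (Inn (POmega F (quadFormMinus n F (e a₀) (e b₀)))) (mapP hσ') = 2) from
    ⟨fun h => (key h.1).1 h.2, fun h => (key h.1).2 h.2⟩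
  intro hp
  have h20 : (2 : F₀) ≠ 0 := fun h => hp ((two_eq_zero_iff hF hf).1 (by rw [← map_ofNat e 2, h, map_zero]))
  have hodd₀ : Fintype.card F₀ % 2 = 1 := FiniteField.odd_card_of_char_ne_two fun h => h20 (by
    have := ringChar.Nat.cast_ringChar (R := F₀)
    rw [h] at this
    exact_mod_cast this)
  have hq : Fintype.card F % 4 = 1 := by
    obtain ⟨j, hj⟩ := Nat.odd_iff.2 hodd₀
    rw [hcard, hj, show (2 * j + 1) ^ 2 = 1 + 4 * (j * (j + 1)) by ring]
    omega
  obtain ⟨D, _, hD, φ, hφ, hφk⟩ := exists_quot_comm (m := n + 1) (F := F) hq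
  have hmapD := map_diagAut L hL hE' hE
  let T : ↥(diagAut hE') ≃* ↥(diagAut hE) :=
    ((autCongr L hL).subgroupMap (diagAut hE')).trans (MulEquiv.subgroupCongr hmapD)
  obtain ⟨ν, hν⟩ := exists_not_isSquare h20
  have hν0 : ν ≠ 0 := fun h => hν (h ▸ IsSquare.zero)
  obtain ⟨α₁, α₂, hα⟩ := exists_value_binary hab₀ hν0
  obtain ⟨s, hsp, hsm, hsM⟩ := exists_rot hn hab₀ h20 (Units.mk0 ν hν0) hα
  obtain ⟨hA, hB⟩ := split_two e hE' hE₀ (res_minus e a₀ b₀) hσ' hσ2 two_pos he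
    (φ.comp T.toMonoidHom) (hφ.comp T.surjective) (by
      ext z
      rw [MonoidHom.mem_ker, MonoidHom.comp_apply, ← MonoidHom.mem_ker, hφk, Subgroup.mem_subgroupOf,
        Subgroup.mem_subgroupOf]
      change autCongr L hL (z : MulAut _) ∈ Inn (POmega F QP) ↔ _
      rw [← hI, Subgroup.mem_map_equiv, MulEquiv.symm_apply_apply])
    (isSquare_map_of_two e hσ2 he) s hsp (by rw [hsm]; exact hν)
  rw [hD] at hA hB
  set g' := liftSim e hE'.nondeg (res_minus e a₀ b₀) s with hg'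
  have hinn := rot_inner_iff e hn hσ2 he hcard h20 θ hθ hroot hsum hprod hE' hE₀ hL (Units.mk0 ν hν0) hν hα s hsp hsM
  rw [← hF₀]
  refine ⟨fun h => hA (hinn.2 h), fun h => ?_⟩
  have := hB fun h' => h (hinn.1 h')
  omega

end CfsgLib.AutOrthField
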