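import Cfsg.Agent.AutOrthField.EvenSplit
import Cfsg.Agent.AutOrth.PlusAut

/-!
# Field and graph-field automorphisms of `PΩ⁺`
-/

set_option autoImplicit false
set_option linter.unusedSectionVars false

namespace CfsgLib.AutOrthField

open Module Cfsg Cfsg.Geo CfsgLib.OrthGeo CfsgLib.Classical.Orth
open CfsgLib.AutOrth (IsSemisim omegaToS conjS conjS_omega sqChar sqChar_eq_one_iff)
open scoped Matrix MatrixGroups

variable {m : ℕ} {F : Type*} [Field F]

local notation "QP" => Cfsg.quadFormPlus m F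

theorem evenPlus (hm : 3 ≤ m) : EvenForm QP m :=
  ⟨isNondegQF_quadFormPlus m, by simp, hm⟩

theorem res_plus {F₀ : Type*} [Field F₀] (e : F₀ →+* F) (v : Fin m ⊕ Fin m → F₀) :
    quadFormPlus m F (fun i => e (v i)) = e (quadFormPlus m F₀ v) := by
  simp [quadFormPlus, map_sum]

theorem orderOf_two_iff {σ : RingAut F} (h : σ ≠ 1) (h2 : σ ^ 2 = 1) : orderOf σ = 2 :=
  orderOf_eq_prime h2 h

variable [hm : Fact (4 ≤ m)] [Fintype F]

theorem three_le : 3 ≤ m := le_trans (by norm_num) hm.out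

theorem plusMult_eq (g : Sim QP) : AutOrth.Plus.mult g = mult (evenPlus (three_le (m := m))).exists_ne g :=
  Units.ext (mult_eq _ _ _ (AutOrth.Plus.mult_spec g)).symm

theorem parS_dS (c : Fˣ) : parS (evenPlus (three_le (m := m))) (AutOrth.Plus.dS c : Sim QP) = 1 := by
  by_cases h2 : (2 : F) = 0
  · obtain ⟨r, hr⟩ := isSquare_of_two_eq_zero h2 (c : F)
    have hr0 : r ≠ 0 := fun h => c.ne_zero (by rw [hr, h, mul_zero])
    rw [show c = Units.mk0 r hr0 * Units.mk0 r hr0 from Units.ext hr, map_mul, map_mul]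
    have : ∀ z : Z2, z * z = 1 := by decide
    exact this _
  · rw [parS_eq_one_iff _ h2, ← plusMult_eq, AutOrth.Plus.mult_dS]
    change (Matrix.fromBlocks (1 : Matrix (Fin m) (Fin m) F) 0 0 ((c : F) • 1)).det = _
    rw [Matrix.det_fromBlocks_zero₂₁, Matrix.det_one, one_mul, Matrix.det_smul, Matrix.det_one, mul_one,
      Fintype.card_fin]

theorem parS_eq_par (g : Sim QP) : parS (evenPlus (three_le (m := m))) g = AutOrth.Plus.par g := by
  have e : g = AutOrth.Plus.dS (AutOrth.Plus.mult g) * isoSim QP (AutOrth.Plus.isoPart g) :=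
    Subtype.ext (by
      rw [Subgroup.coe_mul]
      change g.1 = _ * (((AutOrth.Plus.dS (AutOrth.Plus.mult g))⁻¹ * g : Sim QP) : GL (Fin m ⊕ Fin m) F)
      rw [← Subgroup.coe_mul, mul_inv_cancel_left])
  conv_lhs => rw [e]
  rw [map_mul, parS_dS, one_mul, parS_iso]
  rfl

theorem inndiag_plus_eq : inndiagPOmegaPlus m F = diagAut (evenPlus (F := F) (three_le (m := m))) := by
  rw [AutOrth.Plus.inndiag_eq, diagAut, properS]
  congr 1
  ext g
  rw [MonoidHom.mem_ker, MonoidHom.mem_ker, parS_eq_par]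

theorem exists_mult_plus (c : Fˣ) : ∃ g : Sim QP, mult (evenPlus (three_le (m := m))).exists_ne g = c :=
  ⟨AutOrth.Plus.dS c, by rw [← plusMult_eq, AutOrth.Plus.mult_dS]⟩

omit hm in
theorem two_eq_zero_iff {p f : ℕ} [hp : Fact p.Prime] (hF : Fintype.card F = p ^ f) (hf : 1 ≤ f) :
    (2 : F) = 0 ↔ p = 2 := by
  constructor
  · intro h
    by_contra hne
    have hodd : Odd (Fintype.card F) := hF ▸ (hp.out.odd_of_ne_two hne).pow
    exact AutOrth.Plus.two_ne_zero_of_odd hodd h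
  · rintro rfl
    have h := FiniteField.cast_card_eq_zero F
    rw [hF, Nat.cast_pow, Nat.cast_ofNat] at h
    exact (pow_eq_zero_iff (by omega)).1 h

omit hm in
/-- When a square root of a non-square of the fixed field is a square. -/
theorem isSquare_sqrt_iff {F₀ : Type*} [Field F₀] [Fintype F₀] (e : F₀ →+* F)
    (hcard : Fintype.card F = Fintype.card F₀ ^ 2) (h2 : (2 : F₀) ≠ 0) {ν : F₀} (hν : ¬ IsSquare ν) {a : F}
    (ha : e ν = a * a) : IsSquare a ↔ Fintype.card F₀ % 4 = 3 := by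
  have hν0 : ν ≠ 0 := fun h => hν (h ▸ IsSquare.zero)
  have ha0 : a ≠ 0 := fun h => hν0 (e.injective (by rw [ha, h, mul_zero, map_zero]))
  have h2' : (2 : F) ≠ 0 := by rw [← map_ofNat e 2]; exact (map_ne_zero e).2 h2
  have hch0 : ringChar F₀ ≠ 2 := fun h => h2 (by
    have := ringChar.Nat.cast_ringChar (R := F₀)
    rw [h] at this
    exact_mod_cast this)
  have hch1 : ringChar F ≠ 2 := fun h => h2' (by
    have := ringChar.Nat.cast_ringChar (R := F)
    rw [h] at this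
    exact_mod_cast this)
  have hneg : ν ^ (Fintype.card F₀ / 2) = -1 :=
    (FiniteField.pow_dichotomy hch0 hν0).resolve_left fun h => hν ((FiniteField.isSquare_iff hch0 hν0).2 h)
  obtain ⟨j, hj⟩ : Odd (Fintype.card F₀) := Nat.odd_iff.2 (FiniteField.odd_card_of_char_ne_two hch0)
  rw [show Fintype.card F₀ / 2 = j by omega] at hneg
  have hq : Fintype.card F / 2 = 2 * (j * (j + 1)) := by
    rw [hcard, hj, show (2 * j + 1) ^ 2 = 1 + 2 * (2 * (j * (j + 1))) by ring]
    omega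
  rw [FiniteField.isSquare_iff hch1 ha0, hq, pow_mul, sq, ← ha, ← map_pow, pow_mul, hneg, map_pow, map_neg, map_one]
  rcases Nat.even_or_odd (j + 1) with h | h
  · obtain ⟨i, hi⟩ := h
    exact iff_of_true (Even.neg_one_pow ⟨i, hi⟩) (by omega)
  · refine iff_of_false ?_ (by obtain ⟨i, hi⟩ := h; omega)
    rw [h.neg_one_pow]
    exact fun h' => h2' (by linear_combination -h')

theorem map_dS {F₀ : Type*} [Field F₀] (e : F₀ →+* F) (c : F₀ˣ) :
    liftSim e (isNondegQF_quadFormPlus m) (res_plus e) (AutOrth.Plus.dS c : Sim (quadFormPlus m F₀)) =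
      AutOrth.Plus.dS (Units.map e.toMonoidHom c) := by
  refine Subtype.ext (Units.ext ?_)
  ext i j
  show e ((Matrix.fromBlocks 1 0 0 ((c : F₀) • 1) : Matrix (Fin m ⊕ Fin m) (Fin m ⊕ Fin m) F₀) i j) =
    (Matrix.fromBlocks 1 0 0 ((e (c : F₀)) • 1) : Matrix (Fin m ⊕ Fin m) (Fin m ⊕ Fin m) F) i j
  rcases i with i | i <;> rcases j with j | j <;> simp [Matrix.one_apply, apply_ite e]

/-- The inner-diagonal group modulo inner automorphisms when `q ≡ 1 (mod 4)`. -/
theorem exists_quot_comm (hq : Fintype.card F % 4 = 1) : ∃ (D : Type) (_ : CommGroup D), Nat.card D = 4 ∧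
    ∃ φ : ↥(diagAut (evenPlus (F := F) (three_le (m := m)))) →* D, Function.Surjective φ ∧
      φ.ker = (Inn (POmega F QP)).subgroupOf (diagAut (evenPlus (F := F) (three_le (m := m)))) := by
  rw [← inndiag_plus_eq]
  have h := AutOrth.Plus.inndiag_quot (m := m) (F := F) (Nat.odd_iff.2 (by omega))
  rcases Nat.even_or_odd m with he | ho
  · obtain ⟨φ, h1, h2⟩ := h.2.2 he
    exact ⟨Multiplicative (ZMod 2 × ZMod 2), inferInstance, by simp, φ, h1, h2⟩
  · obtain ⟨φ, h1, h2⟩ := h.2.1 ⟨ho, hq⟩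
    exact ⟨Multiplicative (ZMod 4), inferInstance, by simp, φ, h1, h2⟩

theorem sigma_order (σ : RingAut F) {r : ℕ} {x α φ : MulAut (POmega F QP)} (hφ : IsFieldAutPOmegaOf QP σ φ)
    (hα : α * x * α⁻¹ = φ) (hxr : orderOf x = r) : orderOf σ = r := by
  rw [← orderOf_mapP (isNondegQF_quadFormPlus m) AutOrth.Plus.five_le (AutOrth.Plus.sigmaInv σ),
    ← (isFieldAutOf_iff (AutOrth.Plus.sigmaInv σ) φ).1 hφ, ← hα, AutPSp.orderOf_conj, hxr]

/-- A graph-field automorphism is conjugate to a reflection times an involutory field automorphism. -/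
theorem graphField_base {x : MulAut (POmega F QP)} (hx : IsGraphFieldAutClassPOmegaPlus m x) {r : ℕ}
    (hr : r.Prime) (hxr : orderOf x = r) :
    r = 2 ∧ ∃ (α : MulAut (POmega F QP)) (σ : RingAut F) (ρ : Sim QP), orderOf σ = 2 ∧
      mapSim (AutOrth.Plus.sigmaInv σ) ρ = ρ ∧ ρ * ρ = 1 ∧ parS (evenPlus (three_le (m := m))) ρ ≠ 1 ∧
      α * x * α⁻¹ = conjS QP ρ * mapP (AutOrth.Plus.sigmaInv σ) := by
  set hE := evenPlus (F := F) (three_le (m := m))
  obtain ⟨α, γ, φ, σ, v, R, hσ1, hv, hfix, hR, hγ, hφ, hα⟩ := hx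
  have hσ := AutOrth.Plus.sigmaInv (m := m) σ
  obtain rfl : R = (reflS hE.nondeg hv).1 := Units.ext hR
  rw [(isFieldAutOf_iff hσ φ).1 hφ, ← (AutOrth.induced_iff (reflS hE.nondeg hv).2 γ).1 hγ] at hα
  set ρ := reflS hE.nondeg hv
  have hρ : mapSim hσ ρ = ρ := mapSim_reflS _ hσ hv hfix
  have hρp : parS hE ρ ≠ 1 := parS_reflS hE hv
  have hρ2 : ρ * ρ = 1 := reflS_mul_self _ hv
  have hpow : (conjS QP ρ * mapP hσ) ^ r = 1 := by
    rw [← hxr, ← AutPSp.orderOf_conj α x, hα]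
    exact pow_orderOf_eq_one _
  rw [conjS_mul_mapP_pow] at hpow
  have hσr : (σ : RingAut F) ^ r = 1 := by
    obtain ⟨c, hc⟩ := (twist hσ ρ r).2
    have hp : IsSemisimilarityPair QP (twist hσ ρ r).1 ((σ : RingAut F) ^ r) :=
      ⟨c, fun w => by rw [hc, hσ.pow r]⟩
    rw [conjS_mul_mapP (hσ.pow r) _ hp] at hpow
    exact AutOrthMinus.field_eq_refl hE.nondeg hE.five hp hpow
  haveI := hE.nonempty
  rw [mapP_congr (hσ.pow r) (sigmaInv_one QP) hσr, mapP_one, mul_one] at hpow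
  obtain ⟨c, hc⟩ := exists_scalar_of_conjS_eq_one hE.nondeg hE.five hpow
  have htw : ∀ j, parS hE (twist hσ ρ j) = parS hE ρ ^ j := by
    intro j
    induction j with
    | zero => exact map_one _
    | succ j ih =>
      change parS hE (ρ * mapSim hσ (twist hσ ρ j)) = _
      rw [map_mul, parS_mapSim, ih, pow_succ']
  have hpar : parS hE ρ ^ r = 1 := by rw [← htw, hc, parS_scalar]
  have h2 : r = 2 := by
    have ho : orderOf (parS hE ρ) = 2 :=
      orderOf_eq_prime (by rw [sq]; exact z2_mul hρp hρp) hρp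
    exact ((Nat.prime_dvd_prime_iff_eq Nat.prime_two hr).1 (ho ▸ orderOf_dvd_of_pow_eq_one hpar)).symm
  subst h2
  exact ⟨rfl, α, σ, ρ, orderOf_two_iff hσ1 hσr, hρ, hρ2, hρp, hα⟩

/-- The coset statement for `PΩ⁺`. -/
theorem coset_conj_plus (hall : ∀ β : MulAut (POmega F QP), IsSemisim QP β)
    (x δ : MulAut (POmega F QP))
    (hx : IsFieldAutClassPOmega QP x ∨ IsGraphFieldAutClassPOmegaPlus m x) {r : ℕ} (hr : r.Prime)
    (hxr : orderOf x = r) (hδ : δ ∈ inndiagPOmegaPlus m F) :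
    orderOf (δ * x) = r ↔ IsConjUnder (inndiagPOmegaPlus m F) x (δ * x) := by
  rw [inndiag_plus_eq] at hδ ⊢
  set hE := evenPlus (F := F) (three_le (m := m))
  rcases hx with ⟨α, φ, σ, -, hφ, hα⟩ | hx
  · have hσ := AutOrth.Plus.sigmaInv (m := m) σ
    have hσr := sigma_order σ hφ hα hxr
    obtain ⟨t, ht, -, htp⟩ := exists_fixed_reflection hE hσ
    rw [(isFieldAutOf_iff hσ φ).1 hφ, ← one_mul (mapP hσ), ← map_one (conjS QP)] at hα
    refine coset_conj_base hE hall hσ hσr hr.pos ht (Commute.one_right t).eq htp ?_ hα hxr hδ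
    rcases hr.eq_two_or_odd' with h | h
    · subst h
      exact hasRelated_two hE hσ hσr (map_one _) (one_mul 1)
    · exact hasRelated_odd hE hσ hσr h
  · obtain ⟨rfl, α, σ, ρ, hσ2, hρ, hρ2, hρp, hα⟩ := graphField_base hx hr hxr
    exact coset_conj_base hE hall _ hσ2 two_pos hρ rfl hρp (hasRelated_two hE _ hσ2 hρ hρ2) hα hxr hδ

/-- The field automorphism statement for `PΩ⁺`, given that the inner-diagonal group is normal. -/
theorem field_plus {p f : ℕ} [Fact p.Prime] (hF : Fintype.card F = p ^ f) (hf : 1 ≤ f)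
    (hN : (inndiagPOmegaPlus m F).Normal) (x : MulAut (POmega F QP)) (hx : IsFieldAutClassPOmega QP x)
    {r : ℕ} (hr : r.Prime) (hxr : orderOf x = r) (F₀ : Type*) [Field F₀] [Fintype F₀]
    (hF₀ : Fintype.card F₀ = p ^ (f / r)) :
    r ∣ f ∧ Nonempty (↥(inndiagPOmegaPlus m F ⊓ Subgroup.centralizer {x}) ≃* ↥(inndiagPOmegaPlus m F₀)) ∧
      ((Odd r ∨ p = 2) → splitClassCount (inndiagPOmegaPlus m F) (Inn (POmega F QP)) x = 1) ∧
      ((r = 2 ∧ p ≠ 2 ∧ Odd m ∧ p ^ (f / 2) % 4 = 1) →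
        splitClassCount (inndiagPOmegaPlus m F) (Inn (POmega F QP)) x = 2) ∧
      ((r = 2 ∧ p ≠ 2 ∧ ¬ (Odd m ∧ p ^ (f / 2) % 4 = 1)) →
        splitClassCount (inndiagPOmegaPlus m F) (Inn (POmega F QP)) x = 4) := by
  obtain ⟨α, φ, σ, -, hφ, hα⟩ := hx
  have hσ := AutOrth.Plus.sigmaInv (m := m) σ
  have hσr := sigma_order σ hφ hα hxr
  have hxeq := exists_normal_form hσ hφ hα
  subst hxeq
  have hrf : r ∣ f := AutPSL.even_of_involution hF hf hσr
  obtain ⟨e, he⟩ := AutPSL.exists_fixed_embedding hF hσr hr.pos hrf F₀ hF₀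
  haveI := hN
  haveI : (Inn (POmega F QP)).Normal := inn_normal
  obtain ⟨e1⟩ := AutPSp.inf_centralizer_aut (inndiagPOmegaPlus m F) (mapP hσ) α⁻¹
  obtain ⟨e2⟩ := proper_centralizer e (evenPlus (three_le (m := m))) (evenPlus (F := F₀) (three_le (m := m)))
    (res_plus e) hσ hσr hr.pos he
  rw [← inndiag_plus_eq, ← inndiag_plus_eq] at e2
  refine ⟨hrf, ⟨e1.trans e2⟩, ?_, ?_⟩
  · intro hro
    rw [AutPSp.splitClassCount_aut, inndiag_plus_eq]
    refine split_one e _ (evenPlus (F := F₀) (three_le (m := m))) (res_plus e) hσ hσr hr.pos he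
      exists_mult_plus fun z hz => ?_
    rcases hro with h | h
    · exact (isSquare_map_of_odd e (hσr.symm ▸ h) he).1 hz
    · refine isSquare_of_two_eq_zero (e.injective ?_) z
      rw [map_ofNat, map_zero]
      exact (two_eq_zero_iff hF hf).2 h
  rw [AutPSp.splitClassCount_aut, inndiag_plus_eq]
  suffices key : r = 2 → p ≠ 2 →
      ((Odd m ∧ p ^ (f / 2) % 4 = 1) → splitClassCount (diagAut (evenPlus (three_le (m := m))))
        (Inn (POmega F QP)) (mapP hσ) = 2) ∧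
      (¬ (Odd m ∧ p ^ (f / 2) % 4 = 1) → splitClassCount (diagAut (evenPlus (three_le (m := m))))
        (Inn (POmega F QP)) (mapP hσ) = 4) from
    ⟨fun h => (key h.1 h.2.1).1 h.2.2, fun h => (key h.1 h.2.1).2 h.2.2⟩
  intro h2 hp
  subst h2
  have h20 : (2 : F₀) ≠ 0 := fun h => hp ((two_eq_zero_iff hF hf).1 (by rw [← map_ofNat e 2, h, map_zero]))
  have hcard : Fintype.card F = Fintype.card F₀ ^ 2 := by rw [hF, hF₀, ← pow_mul, Nat.div_mul_cancel hrf]
  have hodd₀ : Fintype.card F₀ % 2 = 1 := FiniteField.odd_card_of_char_ne_two fun h => h20 (by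
    have := ringChar.Nat.cast_ringChar (R := F₀)
    rw [h] at this
    exact_mod_cast this)
  have hq : Fintype.card F % 4 = 1 := by
    obtain ⟨j, hj⟩ := Nat.odd_iff.2 hodd₀
    rw [hcard, hj, show (2 * j + 1) ^ 2 = 1 + 4 * (j * (j + 1)) by ring]
    omega
  obtain ⟨D, _, hD, ψ, hψ, hψk⟩ := exists_quot_comm (m := m) hq
  obtain ⟨ν, hν⟩ := exists_not_isSquare h20
  have hν0 : ν ≠ 0 := fun h => hν (h ▸ IsSquare.zero)
  obtain ⟨hA, hB⟩ := split_two e (evenPlus (three_le (m := m))) (evenPlus (F := F₀) (three_le (m := m)))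
    (res_plus e) hσ hσr two_pos he ψ hψ hψk (isSquare_map_of_two e hσr he)
    (AutOrth.Plus.dS (Units.mk0 ν hν0)) (parS_dS _) (by
      rw [← plusMult_eq, AutOrth.Plus.mult_dS, Units.val_mk0]; exact hν)
  rw [hD] at hA hB
  have hinn : conjS QP (liftSim e (evenPlus (three_le (m := m))).nondeg (res_plus e)
      (AutOrth.Plus.dS (Units.mk0 ν hν0) : Sim (quadFormPlus m F₀))) ∈ Inn (POmega F QP) ↔
      ¬ (Odd m ∧ Fintype.card F₀ % 4 = 1) := by
    rw [map_dS, AutOrth.Plus.conjS_mem_inn_iff, AutOrth.Plus.cls_dS, AutOrth.Plus.mult_dS]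
    constructor
    · rintro ⟨a, ha, hc⟩ ⟨hm', hq'⟩
      have h1 := (Prod.ext_iff.1 hc).2.symm
      rw [AutOrth.Plus.pow_odd_eq hm', Prod.snd_one, sqChar_eq_one_iff,
        isSquare_sqrt_iff e hcard h20 hν (congrArg Units.val ha)] at h1
      omega
    · intro h
      obtain ⟨t, ht⟩ := isSquare_map_of_two e hσr he ν
      have ht0 : t ≠ 0 := fun h' => hν0 (e.injective (by rw [ht, h', mul_zero, map_zero]))
      refine ⟨Units.mk0 t ht0, Units.ext ht, Prod.ext rfl ?_⟩
      rcases Nat.even_or_odd m with he' | ho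
      · exact (AutOrth.Plus.pow_even_eq he' _).symm
      · refine ((AutOrth.Plus.pow_odd_eq ho _).trans ?_).symm
        rw [Prod.snd_one, sqChar_eq_one_iff, Units.val_mk0, isSquare_sqrt_iff e hcard h20 hν ht]
        by_contra h'
        exact h ⟨ho, by omega⟩
  rw [← hF₀]
  refine ⟨fun h => ?_, fun h => hA (hinn.2 h)⟩
  have := hB fun h' => hinn.1 h' h
  omega

end CfsgLib.AutOrthField
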