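import Cfsg.Agent.AutOrth.PlusFour
import Cfsg.Agent.AutOrthField.PlusField

/-!
# The inner-diagonal group of `PΩ⁺` is normal in the automorphism group
-/

set_option autoImplicit false
set_option linter.unusedSectionVars false

namespace CfsgLib.AutOrthField

open Cfsg Cfsg.Geo CfsgLib.OrthGeo CfsgLib.Classical.Orth
open CfsgLib.AutOrth (IsSemisim conjS)
open CfsgLib.AutOrth.Plus (fieldHom par)
open scoped Matrix MatrixGroups

variable {F : Type*} [Field F] [Fintype F]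

theorem inndiag_plus_normal_four :
    (inndiagPOmegaPlus 4 F).Normal := by
  haveI : Fact (4 ≤ 4) := ⟨le_rfl⟩
  rw [AutOrth.Plus.inndiag_eq]
  set G := (par (m := 4) (F := F)).ker.map (conjS (quadFormPlus 4 F))
  let P : MulAut (POmega F (quadFormPlus 4 F)) → Prop := fun β => ∀ n ∈ G, β * n * β⁻¹ ∈ G
  have hmul : ∀ β γ, P β → P γ → P (β * γ) := fun β γ hβ hγ n hn => by
    rw [show β * γ * n * (β * γ)⁻¹ = β * (γ * n * γ⁻¹) * β⁻¹ by group]
    exact hβ _ (hγ n hn)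
  have hc : ∀ h, P (conjS _ h) := by
    rintro h _ ⟨g, hg, rfl⟩
    exact ⟨h * g * h⁻¹, MonoidHom.normal_ker par |>.conj_mem g hg h, by rw [map_mul, map_mul, map_inv]⟩
  have hf : ∀ σ, P (fieldHom 4 σ) := by
    rintro σ _ ⟨g, hg, rfl⟩
    refine ⟨AutOrth.Plus.mapS σ g, ?_, ?_⟩
    · exact (AutOrth.Plus.par_mapS σ g).trans hg
    · exact eq_mul_inv_of_mul_eq (AutOrth.Plus.fieldHom_mul_conjS σ g).symm
  have ht : P AutOrth.Triality.tau := by
    rintro _ ⟨g, hg, rfl⟩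
    obtain ⟨g', hg', e⟩ := AutOrth.Triality.tau_conj_mem (MonoidHom.mem_ker.1 hg)
    exact ⟨g', hg', eq_mul_inv_of_mul_eq e.symm⟩
  refine ⟨fun n hn β => ?_⟩
  obtain ⟨h, σ, rfl | ⟨g, rfl⟩⟩ := AutOrth.Triality.decomposition_four β
  · exact hmul _ _ (hc h) (hf σ) n hn
  · exact hmul _ _ (hmul _ _ (hc g) ht) (hmul _ _ (hc h) (hf σ)) n hn

/-- `Inndiag(PΩ⁺_{2m}(F))` is normal for `m ≥ 4`. -/
theorem inndiag_plus_normal {m : ℕ} (hm : 4 ≤ m) : (inndiagPOmegaPlus m F).Normal := by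
  rcases hm.eq_or_lt with rfl | h5
  · exact inndiag_plus_normal_four
  · haveI : Fact (4 ≤ m) := ⟨hm⟩
    rw [inndiag_plus_eq]
    exact diagAut_normal _ (AutOrth.Plus.isSemisim_five h5)

end CfsgLib.AutOrthField
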